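import Mathlib

/-!
The transfer cocycle: `κ θ g ω = θ(s(gω)⁻¹ g s(ω))`.
-/

set_option autoImplicit false
open Subgroup
open scoped commutatorElement

namespace Cfsg.Agent.H47

section coc

variable {G : Type*} [Group G] {N : Subgroup G} {C : Type*} [CommGroup C]

theorem coc_mem (g : G) (ω : G ⧸ N) : (g • ω).out⁻¹ * (g * ω.out) ∈ N := by
  rw [← QuotientGroup.eq]
  rw [QuotientGroup.out_eq']
  conv_lhs => rw [← QuotientGroup.out_eq' ω]
  rfl

/-- the transfer cocycle -/
noncomputable def coc (θ : N →* C) (g : G) (ω : G ⧸ N) : C := θ ⟨_, coc_mem g ω⟩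

theorem coc_mul (θ : N →* C) (g h : G) (ω : G ⧸ N) :
    coc θ (g * h) ω = coc θ g (h • ω) * coc θ h ω := by
  unfold coc
  rw [← map_mul]
  congr 1
  apply Subtype.ext
  simp only [Subgroup.coe_mul, mul_smul]
  group

theorem coc_one (θ : N →* C) (ω : G ⧸ N) : coc θ 1 ω = 1 := by
  have h := coc_mul θ 1 1 ω
  rw [one_smul, mul_one] at h
  exact (mul_eq_left.1 h.symm)

theorem coc_inv (θ : N →* C) (g : G) (ω : G ⧸ N) : coc θ g⁻¹ (g • ω) = (coc θ g ω)⁻¹ := by
  have h := coc_mul θ g⁻¹ g ω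
  rw [inv_mul_cancel, coc_one] at h
  exact eq_inv_of_mul_eq_one_left h.symm

/-- value at a fixed point -/
theorem coc_fixed (θ : N →* C) {g x : G} (h : x⁻¹ * g * x ∈ N) :
    coc θ g (x : G ⧸ N) = θ ⟨x⁻¹ * g * x, h⟩ := by
  obtain ⟨n, hn⟩ := QuotientGroup.mk_out_eq_mul N x
  have hfix : g • (x : G ⧸ N) = (x : G ⧸ N) := by
    change ((g * x : G) : G ⧸ N) = _
    rw [eq_comm, QuotientGroup.eq, ← mul_assoc]
    exact h
  unfold coc
  have h1 : (⟨_, coc_mem g (x : G ⧸ N)⟩ : N) = n⁻¹ * ⟨x⁻¹ * g * x, h⟩ * n := by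
    apply Subtype.ext
    simp only [Subgroup.coe_mul, hfix, hn, Subgroup.coe_inv]
    group
  rw [h1, map_mul, map_mul, map_inv, mul_comm (θ n)⁻¹, inv_mul_cancel_right]

/-- product of the cocycle over a finite set -/
noncomputable def cprod (θ : N →* C) (Ω : Finset (G ⧸ N)) (g : G) : C := ∏ ω ∈ Ω, coc θ g ω

def Inv (Ω : Finset (G ⧸ N)) (g : G) : Prop := ∀ ω ∈ Ω, g • ω ∈ Ω

theorem cprod_mul (θ : N →* C) {Ω : Finset (G ⧸ N)} {g h : G} (hh : Inv Ω h) :
    cprod θ Ω (g * h) = cprod θ Ω g * cprod θ Ω h := by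
  classical
  unfold cprod
  simp only [coc_mul]
  rw [Finset.prod_mul_distrib]
  congr 1
  apply Finset.prod_bij (fun ω _ => h • ω) hh
  · intro a _ b _ hab
    exact MulAction.injective h hab
  · intro b hb
    have hsurj := Finset.surj_on_of_inj_on_of_card_le (s := Ω) (t := Ω) (fun ω _ => h • ω) hh
      (fun a b _ _ hab => MulAction.injective h hab) le_rfl b hb
    obtain ⟨a, ha, hab⟩ := hsurj
    exact ⟨a, ha, hab.symm⟩
  · intro a ha; rfl

theorem Inv.mul {Ω : Finset (G ⧸ N)} {g h : G} (hg : Inv Ω g) (hh : Inv Ω h) : Inv Ω (g * h) := by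
  intro ω hω
  rw [mul_smul]
  exact hg _ (hh _ hω)

theorem Inv.one {Ω : Finset (G ⧸ N)} : Inv Ω (1 : G) := by
  intro ω hω
  rwa [one_smul]

theorem Inv.inv {Ω : Finset (G ⧸ N)} {g : G} (hg : Inv Ω g) : Inv Ω g⁻¹ := by
  intro ω hω
  obtain ⟨a, ha, hab⟩ := Finset.surj_on_of_inj_on_of_card_le (s := Ω) (t := Ω)
    (fun ω _ => g • ω) hg (fun a b _ _ hab => MulAction.injective g hab) le_rfl ω hω
  rw [hab, inv_smul_smul]
  exact ha

theorem inv_univ [Fintype (G ⧸ N)] (g : G) : Inv (Finset.univ : Finset (G ⧸ N)) g :=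
  fun _ _ => Finset.mem_univ _

theorem cprod_one (θ : N →* C) (Ω : Finset (G ⧸ N)) : cprod θ Ω 1 = 1 := by
  unfold cprod
  exact Finset.prod_eq_one fun ω _ => coc_one θ ω

open scoped Pointwise in
/-- conjugation formula -/
theorem cprod_conj [DecidableEq (G ⧸ N)] (θ : N →* C) {Ω : Finset (G ⧸ N)} {g k : G}
    (hk : Inv Ω k) :
    cprod θ (Ω.image (fun ω => g • ω)) (g * k * g⁻¹) = cprod θ Ω k := by
  unfold cprod
  rw [Finset.prod_image (fun a _ b _ hab => MulAction.injective g hab)]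
  have h1 : ∀ ω, coc θ (g * k * g⁻¹) (g • ω) = coc θ g (k • ω) * coc θ k ω * (coc θ g ω)⁻¹ := by
    intro ω
    rw [coc_mul, coc_inv, inv_smul_smul, coc_mul]
  simp only [h1]
  rw [Finset.prod_mul_distrib, Finset.prod_mul_distrib, Finset.prod_inv_distrib]
  have h2 := cprod_mul θ (g := g) hk
  have h3 : cprod θ Ω (g * k) = ∏ ω ∈ Ω, (coc θ g (k • ω) * coc θ k ω) := by
    unfold cprod
    exact Finset.prod_congr rfl fun ω _ => coc_mul θ g k ω
  rw [Finset.prod_mul_distrib] at h3
  rw [← h3, h2]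
  unfold cprod
  rw [mul_comm (∏ ω ∈ Ω, coc θ g ω), mul_inv_cancel_right]

theorem cprod_union [DecidableEq (G ⧸ N)] (θ : N →* C) {Ω Ω' : Finset (G ⧸ N)}
    (hd : Disjoint Ω Ω') (g : G) : cprod θ (Ω ∪ Ω') g = cprod θ Ω g * cprod θ Ω' g :=
  Finset.prod_union hd

theorem coc_pow (θ : N →* C) (g : G) (ω : G ⧸ N) (m : ℕ) :
    coc θ (g ^ m) ω = ∏ j ∈ Finset.range m, coc θ g (g ^ j • ω) := by
  induction m with
  | zero => simp [coc_one]
  | succ m ih =>
    rw [Finset.prod_range_succ, ← ih, pow_succ', coc_mul, mul_comm]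

/-- If `g` has no fixed point in the invariant set `Ω`, and `θ` kills all `x⁻¹ g^m x ∈ N` with
`1 < m`, `m ∣ orderOf g`, then the product is trivial. -/
theorem cprod_eq_one_of_no_fixed (θ : N →* C) {g : G} (hgo : 0 < orderOf g)
    (hθ : ∀ (m : ℕ) (x : G) (h : x⁻¹ * g ^ m * x ∈ N), 1 < m → m ∣ orderOf g →
      θ ⟨_, h⟩ = 1) :
    ∀ (n : ℕ) (Ω : Finset (G ⧸ N)), Ω.card ≤ n → Inv Ω g → (∀ ω ∈ Ω, g • ω ≠ ω) →
      cprod θ Ω g = 1 := by
  classical
  intro n
  induction n with
  | zero =>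
    intro Ω hc _ _
    have : Ω = ∅ := Finset.card_eq_zero.1 (Nat.le_zero.1 hc)
    rw [this]; unfold cprod; simp
  | succ n ih =>
    intro Ω hc hinv hfix
    rcases Ω.eq_empty_or_nonempty with h0 | ⟨ω, hω⟩
    · rw [h0]; unfold cprod; simp
    set m := Function.minimalPeriod (g • ·) ω with hm
    have hper : Function.IsPeriodicPt (g • ·) (orderOf g) ω := by
      unfold Function.IsPeriodicPt Function.IsFixedPt
      rw [smul_iterate, pow_orderOf_eq_one]
      exact one_smul G ω
    have hm0 : 0 < m := hper.minimalPeriod_pos hgo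
    have hmd : m ∣ orderOf g := hper.minimalPeriod_dvd
    have hmfix : g ^ m • ω = ω := by
      have := Function.iterate_minimalPeriod (f := (g • ·)) (x := ω)
      rwa [smul_iterate] at this
    have hm1 : 1 < m := by
      rcases Nat.lt_or_ge 1 m with h | h
      · exact h
      · exfalso
        have : m = 1 := le_antisymm h hm0
        rw [this, pow_one] at hmfix
        exact hfix ω hω hmfix
    set Z := (Finset.range m).image (fun j => g ^ j • ω) with hZ
    have hpow : ∀ j : ℕ, g ^ j • ω ∈ Ω := by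
      intro j
      induction j with
      | zero => rwa [pow_zero, one_smul]
      | succ j ih => rw [pow_succ', mul_smul]; exact hinv _ ih
    have hZΩ : Z ⊆ Ω := by
      intro x hx
      rw [hZ, Finset.mem_image] at hx
      obtain ⟨j, _, rfl⟩ := hx
      exact hpow j
    have hZg : Inv Z g := by
      intro x hx
      rw [hZ, Finset.mem_image] at hx ⊢
      obtain ⟨j, hj, rfl⟩ := hx
      rw [Finset.mem_range] at hj
      rcases Nat.lt_or_ge (j + 1) m with h | h
      · exact ⟨j + 1, Finset.mem_range.2 h, by rw [pow_succ', mul_smul]⟩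
      · have : j + 1 = m := le_antisymm hj h
        refine ⟨0, Finset.mem_range.2 hm0, ?_⟩
        rw [pow_zero, one_smul, ← mul_smul, ← pow_succ', this, hmfix]
    have hinj : Set.InjOn (fun j => g ^ j • ω) (Finset.range m : Set ℕ) := by
      intro i hi j hj hij
      have h1 := Function.iterate_injOn_Iio_minimalPeriod (f := (g • ·)) (x := ω)
      apply h1 (by simpa using hi) (by simpa using hj)
      simpa [smul_iterate] using hij
    have hZprod : cprod θ Z g = 1 := by
      unfold cprod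
      rw [hZ, Finset.prod_image hinj, ← coc_pow]
      obtain ⟨x, rfl⟩ := QuotientGroup.mk_surjective ω
      have hmem : x⁻¹ * g ^ m * x ∈ N := by
        have : ((g ^ m * x : G) : G ⧸ N) = (x : G ⧸ N) := hmfix
        rw [eq_comm, QuotientGroup.eq, ← mul_assoc] at this
        exact this
      rw [coc_fixed θ hmem]
      exact hθ m x hmem hm1 hmd
    have hrest : cprod θ (Ω \ Z) g = 1 := by
      apply ih
      · have h1 : (Ω \ Z).card < Ω.card := by
          apply Finset.card_lt_card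
          refine ⟨Finset.sdiff_subset, fun h => ?_⟩
          have h2 := h hω
          rw [Finset.mem_sdiff] at h2
          apply h2.2
          rw [hZ, Finset.mem_image]
          exact ⟨0, Finset.mem_range.2 hm0, by rw [pow_zero, one_smul]⟩
        omega
      · intro x hx
        rw [Finset.mem_sdiff] at hx ⊢
        refine ⟨hinv x hx.1, fun h => hx.2 ?_⟩
        have := hZg.inv _ h
        rwa [inv_smul_smul] at this
      · intro x hx
        exact hfix x (Finset.mem_sdiff.1 hx).1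
    have h2 : cprod θ Ω g = cprod θ (Z ∪ (Ω \ Z)) g := by
      rw [Finset.union_sdiff_of_subset hZΩ]
    rw [h2, cprod_union θ Finset.disjoint_sdiff, hZprod, hrest, mul_one]

end coc

end Cfsg.Agent.H47
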