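import Cfsg.Agent.H47.JH

set_option autoImplicit false
set_option linter.unusedSectionVars false
set_option linter.style.haveILetI false
open Cfsg Subgroup
open scoped commutatorElement

namespace Cfsg.Agent.H47

universe u

section
variable {G : Type*} [Group G] {M : Type*} [AddCommGroup M] [Finite G] {p q : ℕ} [Fact p.Prime] {K : Subgroup G}
  [K.Normal] {ρ : G →* AddMonoid.End M} {V : AddSubgroup M}

theorem Nt.exists_x (h : Nt p q ρ V) (hpu : PU p q K) {S : Subgroup G} (hS : SylIn p S ⊤) :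
    ∃ x ∈ Fx ρ V S, x ≠ 0 := by
  by_contra hcon
  push Not at hcon
  have h1 : Fx ρ V S = ⊥ := by
    rw [eq_bot_iff]; exact fun x hx => AddSubgroup.mem_bot.2 (hcon x hx)
  have h2 := h.card_fx S hS
  rw [h1, AddSubgroup.card_bot] at h2
  have := hpu.one_lt
  omega

/-- natural modules are irreducible -/
theorem Nt.irr' (h : Nt p q ρ V) (hpu : PU p q K) {N : AddSubgroup M} (hN : ∀ g, ∀ m ∈ N, ρ g m ∈ N)
    (hN0 : ∃ m ∈ N, m ∈ V ∧ m ≠ 0) : V ≤ N := by
  have key : ∀ S, SylIn p S ⊤ → ∀ m ∈ N, m ∈ V → m ∉ Fx ρ V S → Fx ρ V S ≤ N := by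
    intro S hS m hm hmV hmS x hx
    obtain ⟨s, hs, e⟩ := h.cover S hS m hmV hmS x hx
    rw [e]
    exact sub_mem (hN s m hm) hm
  obtain ⟨S, hS⟩ := SylIn.exists p (⊤ : Subgroup G)
  obtain ⟨R, hR, hSR, -⟩ := hpu.exists_other hS
  have ho : Opp p ⊤ S R := hpu.opp_iff.2 ⟨hS, hR, hSR⟩
  obtain ⟨m, hm, hmV, hm0⟩ := hN0
  have key2 : ∀ S R, SylIn p S ⊤ → SylIn p R ⊤ → Opp p ⊤ S R → ∀ m ∈ N, m ∈ V → m ∉ Fx ρ V S →
      Fx ρ V S ≤ N ∧ Fx ρ V R ≤ N := by
    intro S R hS hR ho m hm hmV hmS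
    have h1 := key S hS m hm hmV hmS
    refine ⟨h1, ?_⟩
    obtain ⟨x, hx, hx0⟩ := h.exists_x hpu hS
    exact key R hR x (h1 hx) hx.1 (fun h2 => hx0 (h.inf S R ho x hx h2))
  have hboth : Fx ρ V S ≤ N ∧ Fx ρ V R ≤ N := by
    by_cases hmS : m ∈ Fx ρ V S
    · have hmR : m ∉ Fx ρ V R := fun h2 => hm0 (h.inf S R ho m hmS h2)
      have h3 := key2 R S hR hS ⟨ho.2.1, ho.1, ho.2.2.2, ho.2.2.1⟩ m hm hmV hmR
      exact ⟨h3.2, h3.1⟩
    · exact key2 S R hS hR ho m hm hmV hmS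
  intro v hv
  obtain ⟨x, hx, y, hy, rfl⟩ := h.sup S R ho v hv
  exact add_mem (hboth.1 hx) (hboth.2 hy)

end

section
variable {G : Type*} [Group G] [Finite G] {M W : Type*} [AddCommGroup M] [AddCommGroup W]
  {p q : ℕ} [Fact p.Prime] {K : Subgroup G} [K.Normal] {ρ : G →* AddMonoid.End M} {ρ₂ : G →* AddMonoid.End W}
  {Zb : AddSubgroup M} {j : M →+ W}

/-- coprime action on modules: `[M, L] ∩ C_M(L) = 0` -/
theorem coprime_inf (ρ : G →* AddMonoid.End M) (hpm : ∀ m : M, p • m = 0) {L : Subgroup G}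
    (hL : ∀ x ∈ L, (∃ n : ℕ, x ^ p ^ n = 1) → ∀ m, ρ x m = m) {b : M}
    (hb : b ∈ AddSubgroup.closure {m : M | ∃ x ∈ L, ∃ m', m = ρ x m' - m'}) (hbL : ∀ x ∈ L, ρ x b = b) : b = 0 := by
  classical
  let φ : L →* AddMonoid.End M := ρ.comp L.subtype
  let Q := L ⧸ φ.ker
  let φb : Q →* AddMonoid.End M := QuotientGroup.lift φ.ker φ (fun _ h => h)
  haveI : Fintype Q := Fintype.ofFinite _
  have hφb : ∀ x : L, φb (QuotientGroup.mk x) = ρ x := fun x => rfl
  -- the sum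
  let E : M →+ M :=
    { toFun := fun m => ∑ x : Q, φb x m
      map_zero' := by simp
      map_add' := fun a b => by
        rw [← Finset.sum_add_distrib]
        exact Finset.sum_congr rfl (fun x _ => map_add _ _ _) }
  have hE : ∀ m, E m = ∑ x : Q, φb x m := fun m => rfl
  have h1 : E b = (Fintype.card Q) • b := by
    rw [hE, Finset.sum_congr rfl (g := fun _ => b)]
    · rw [Finset.sum_const, Finset.card_univ]
    · intro x _
      obtain ⟨x, rfl⟩ := QuotientGroup.mk_surjective x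
      exact hbL x x.2
  have h2 : E b = 0 := by
    have h3 : AddSubgroup.closure {m : M | ∃ x ∈ L, ∃ m', m = ρ x m' - m'} ≤ E.ker := by
      rw [AddSubgroup.closure_le]
      rintro _ ⟨y, hy, m', rfl⟩
      change E (ρ y m' - m') = 0
      rw [map_sub, sub_eq_zero, hE, hE]
      have h4 : ∀ x : Q, φb x (ρ y m') = φb (x * QuotientGroup.mk ⟨y, hy⟩) m' := by
        intro x
        rw [map_mul]; rfl
      rw [Finset.sum_congr rfl (fun x _ => h4 x)]
      exact Fintype.sum_equiv (Equiv.mulRight (QuotientGroup.mk ⟨y, hy⟩ : Q)) _ _ (fun x => rfl)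
    exact h3 hb
  have h3 : ¬ p ∣ Fintype.card Q := by
    obtain ⟨P⟩ : Nonempty (Sylow p L) := inferInstance
    have h4 : (P : Subgroup L) ≤ φ.ker := by
      intro x hx
      rw [MonoidHom.mem_ker]
      apply AddMonoidHom.ext
      intro m
      apply hL x x.2
      obtain ⟨n, hn⟩ := P.2 ⟨x, hx⟩
      refine ⟨n, ?_⟩
      have := congrArg (fun y : P => ((y : L) : G)) hn
      exact this
    have h5 : φ.ker.index ∣ (P : Subgroup L).index := index_dvd_of_le h4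
    rw [← Nat.card_eq_fintype_card]
    intro h6
    exact P.not_dvd_index (h6.trans h5)
  apply nsmul_coprime_eq_zero (hpm b) (n := Fintype.card Q)
  · rw [← h1, h2]
  · exact ((Fact.out : p.Prime).coprime_iff_not_dvd).2 h3

/-- elements trivial on `Zb` are trivial on `W` -/
theorem Ext2.C1_le (h : Ext2 p q ρ ρ₂ Zb j) (hpu : PU p q K) (hp : p ≠ 2) {S R : Subgroup G} (ho : Opp p ⊤ S R)
    {w : G} (hw : w ∈ S) (hwT : w ∉ pCore p G) {a : M}
    (hf : ρ w (ρ w a - a) - (ρ w a - a) ∈ Zb) (hf0 : ρ w (ρ w a - a) - (ρ w a - a) ≠ 0)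
    {g : G} (hg : ∀ z ∈ Zb, ρ g z = z) (m : M) : ρ g m = m := by
  obtain ⟨v, hv, v₂, hv₂, e1, e2⟩ := hpu.exists_match ho hw hwT
  have m1 : Mt ρ Zb S R w v := h.n1.mt hpu ho hw hv hv₂ e1 e2
  have m2 : Mt ρ₂ ⊤ S R w v := h.n2.mt hpu ho hw hv hv₂ e1 e2
  -- the centralizer of Zb
  let L : Subgroup G :=
    { carrier := {g | ∀ z ∈ Zb, ρ g z = z}
      one_mem' := fun z _ => rho_one ρ z
      mul_mem' := by
        intro a b ha hb z hz
        rw [rho_mul, hb z hz, ha z hz]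
      inv_mem' := by
        intro a ha z hz
        conv_lhs => rw [← ha z hz]
        rw [rho_inv_mul] }
  have hLn : L.Normal := by
    refine ⟨fun g hg x => ?_⟩
    intro z hz
    have h1 : ρ x⁻¹ z ∈ Zb := h.n1.inv _ z hz
    rw [rho_mul, rho_mul, hg _ h1, rho_mul_inv]
  have hLne : L ≠ ⊤ := by
    intro h1
    obtain ⟨x, hx, hx0⟩ := h.n1.exists_x hpu ho.1
    apply hx0
    apply h.n1.inf S R ho x hx ⟨hx.1, fun s _ => ?_⟩
    have : s ∈ L := by rw [h1]; trivial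
    exact this x hx.1
  have hLT : ∀ x ∈ L, (∃ n : ℕ, x ^ p ^ n = 1) → ∀ m, ρ x m = m := by
    intro x hx hxp m
    have h3 : IsPGroup p (zpowers x) := by
      obtain ⟨n, hn⟩ := hxp
      rintro ⟨y, hy⟩
      obtain ⟨k, rfl⟩ := mem_zpowers_iff.1 hy
      refine ⟨n, Subtype.ext ?_⟩
      change (x ^ k) ^ p ^ n = 1
      rw [← zpow_natCast, ← zpow_mul, mul_comm, zpow_mul, zpow_natCast, hn, one_zpow]
    obtain ⟨P, hP⟩ := h3.exists_le_sylow
    have hP2 : SylIn p (P : Subgroup G) ⊤ := sylIn_top P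
    apply h.tr x _ m
    rcases hpu.dich hP2 hLn with h1 | h1
    · exfalso
      -- then everything acts on Zb as P
      obtain ⟨R', hR', hSR', -⟩ := hpu.exists_other hP2
      have ho' : Opp p ⊤ (P : Subgroup G) R' := hpu.opp_iff.2 ⟨hP2, hR', hSR'⟩
      obtain ⟨y, hy, hy0⟩ := h.n1.exists_x hpu hP2
      apply hy0
      apply h.n1.inf _ R' ho' y hy ⟨hy.1, fun s _ => ?_⟩
      have hs : s ∈ L ⊔ (P : Subgroup G) := by rw [h1]; trivial
      haveI := hLn
      rw [mem_sup_of_normal_left] at hs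
      obtain ⟨l, hl, t, ht, rfl⟩ := hs
      rw [rho_mul, hy.2 t ht, hl y hy.1]
    · exact h1 ⟨hx, hP (mem_zpowers x)⟩
  -- [M, L]
  set N := AddSubgroup.closure {m : M | ∃ x ∈ L, ∃ m', m = ρ x m' - m'} with hN
  have hNinv : ∀ g, ∀ m ∈ N, ρ g m ∈ N := by
    intro g m hm
    have h1 : N ≤ N.comap (ρ g) := by
      rw [hN, AddSubgroup.closure_le]
      rintro _ ⟨x, hx, m', rfl⟩
      change ρ g (ρ x m' - m') ∈ AddSubgroup.closure _
      apply AddSubgroup.subset_closure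
      refine ⟨g * x * g⁻¹, hLn.conj_mem x hx g, ρ g m', ?_⟩
      rw [rho_mul, rho_mul, rho_inv_mul, map_sub]
    exact h1 hm
  have hmain : ∀ x ∈ L, ∀ u, ρ₂ x u = u := by
    by_contra hcon
    push Not at hcon
    obtain ⟨x, hx, u, hxu⟩ := hcon
    obtain ⟨m', rfl⟩ := h.surj u
    -- the image of N is all of W
    have h1 : (⊤ : AddSubgroup W) ≤ N.map j := by
      apply h.n2.irr' hpu
      · rintro g _ ⟨n, hn, rfl⟩
        exact ⟨ρ g n, hNinv g n hn, h.eqv g n⟩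
      · refine ⟨j (ρ x m' - m'), ⟨_, AddSubgroup.subset_closure ⟨x, hx, m', rfl⟩, rfl⟩, AddSubgroup.mem_top _, ?_⟩
        rw [map_sub, h.eqv, sub_ne_zero]
        exact hxu
    obtain ⟨b, hb, hba⟩ := h1 (AddSubgroup.mem_top (j a))
    have hc : j (a - b) = 0 := by rw [map_sub, hba, sub_self]
    have hq := h.quad_ker hpu hp ho.1 m1 m2 hc
    have hfb : ρ w (ρ w a - a) - (ρ w a - a) = ρ w (ρ w b - b) - (ρ w b - b) := by
      rw [← sub_eq_zero]
      rw [← sub_eq_zero] at hq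
      rw [← hq]
      simp only [map_sub]
      abel
    apply hf0
    apply coprime_inf ρ h.pm hLT (b := ρ w (ρ w a - a) - (ρ w a - a))
    · rw [hfb]
      exact sub_mem (hNinv w _ (sub_mem (hNinv w b hb) hb)) (sub_mem (hNinv w b hb) hb)
    · intro x hx
      exact hx _ hf
  exact h.C0_triv hpu hp ⟨hg, fun m => hmain g hg _⟩ m

end

end Cfsg.Agent.H47
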