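import Cfsg.Agent.H47.Ker

set_option autoImplicit false
set_option linter.unusedSectionVars false
set_option linter.style.haveILetI false
open Cfsg Subgroup
open scoped commutatorElement

namespace Cfsg.Agent.H47

universe u

section
variable {H : Type u} [Group H] {p q : ℕ}

/-- the kernel on `Z/D` is the core -/
def KerP (p : ℕ) (G Z : Subgroup H) : Prop :=
  ∀ x ∈ G, (∀ z ∈ Z, ⁅z, x⁆ ∈ cz Z ⊥ G) → x ∈ pCoreOf p G

theorem KerP.of_map {X : Type*} [Group X] [Finite X] [Finite H] {ι : X →* H} (hι : Function.Injective ι)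
    {G Z : Subgroup X} (h : KerP p (G.map ι) (Z.map ι)) : KerP p G Z := by
  intro x hx hz
  have h1 := h (ι x) ⟨x, hx, rfl⟩ (by
    rintro _ ⟨z, hz', rfl⟩
    have e : cz (Z.map ι) ⊥ (G.map ι) = (cz Z ⊥ G).map ι := by
      rw [← Subgroup.map_bot ι, cz_map hι]
    rw [e, ← map_commutatorElement]
    exact ⟨_, hz z hz', rfl⟩)
  rw [pCoreOf_map_of_injective hι] at h1
  exact (mem_map_inj hι).1 h1

theorem KerP.map [Finite H] {G Z : Subgroup H} (h : KerP p G Z) (g : H) :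
    KerP p (G.map (MulAut.conj g).toMonoidHom) (Z.map (MulAut.conj g).toMonoidHom) := by
  have h1 : KerP p ((G.map (MulAut.conj g).toMonoidHom).map (MulAut.conj g⁻¹).toMonoidHom)
      ((Z.map (MulAut.conj g).toMonoidHom).map (MulAut.conj g⁻¹).toMonoidHom) := by
    rw [← map_conj_mul, ← map_conj_mul, inv_mul_cancel, map_conj_one, map_conj_one]
    exact h
  exact KerP.of_map (MulAut.conj g⁻¹).injective h1

variable [Finite H] [Fact p.Prime] {G : Subgroup H}

theorem core_of_chain {C' : Subgroup H} (hC : C' ≤ G) (hn : G ≤ normalizer (C' : Set H))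
    (hcent : G ⊓ centralizer (pCoreOf p G : Set H) ≤ pCoreOf p G)
    (hres : pRes p C' ≤ centralizer (pCoreOf p G : Set H)) : C' ≤ pCoreOf p G := by
  have h1 : pRes p C' ≤ pCoreOf p G := (le_inf ((pRes_le p C').trans hC) hres).trans hcent
  have h2 : pRes p C' = ⊥ := by
    rw [← pRes_pRes]
    exact pRes_eq_bot_of_isPGroup ((pCoreOf_isPGroup p G).to_le h1)
  exact le_pCoreOf hC hn (isPGroup_of_pRes_eq_bot h2)

theorem cz_bot_le_cent {Z : Subgroup H} : cz Z ⊥ G ≤ centralizer (G : Set H) := by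
  rw [cz_bot]; exact inf_le_right

theorem Case1.ker {Z : Subgroup H} (h : Case1 p q G Z) (hv : Vtx p q G) : KerP p G Z := by
  have hCn : G ≤ normalizer ((G ⊓ cmod Z (cz Z ⊥ G) : Subgroup H) : Set H) := by
    refine le_normalizer_inf le_normalizer (fun g hg => ?_)
    exact mem_normalizer_cmod (h.norm hg) (cz_norm h.norm (fun x _ => mem_normalizer_bot x) le_normalizer hg)
  have key : G ⊓ cmod Z (cz Z ⊥ G) ≤ pCoreOf p G := by
    apply core_of_chain inf_le_left hCn hv.char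
    set L := pRes p (G ⊓ cmod Z (cz Z ⊥ G)) with hL
    have hLL : pRes p L = L := pRes_pRes _
    have hLC : L ≤ G ⊓ cmod Z (cz Z ⊥ G) := pRes_le _ _
    have h1 : ⁅Z, L⁆ ≤ cz Z ⊥ G := commutator_le_of_le_cmod (hLC.trans inf_le_right)
    have hD : L ≤ centralizer (cz Z ⊥ G : Set H) := by
      rw [le_centralizer_iff]
      exact cz_bot_le_cent.trans (centralizer_le (hLC.trans inf_le_left))
    have hZ : L ≤ centralizer (Z : Set H) := by
      rw [← hLL]
      exact pRes_centralizes_of_chain ((pCoreOf_isPGroup p G).to_le (cz_le.trans h.le)) h1 hD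
    rw [← hLL]
    refine pRes_centralizes_of_chain ((pCoreOf_isPGroup p G).to_le h.le) ?_ hZ
    refine (commutator_mono le_rfl ?_).trans h.res
    rw [← hLL]
    exact pRes_mono (hLC.trans inf_le_left)
  intro x hx hxz
  apply key
  refine ⟨hx, ?_, fun v hv => ?_⟩
  · exact cz_norm h.norm (fun x _ => mem_normalizer_bot x) le_normalizer hx
  · rw [← inv_mem_iff, commutatorElement_inv]
    exact hxz v hv

theorem Crt.ker {𝒱 : Set (Subgroup H)} (h : Crt p q 𝒱 2) (hG : G ∈ 𝒱) : KerP p G (ZV p G) := by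
  have hp3 := h.three
  obtain ⟨δ, P, hp⟩ := Crt.exists_pt (c := 1) h 3
  have hm2 := hp.wk.mem 2 (by omega)
  obtain ⟨g, rfl⟩ := h.am.trans (δ 2) hm2 G hG
  rw [ZV_conj]
  apply KerP.map
  have hcase := h.case2 hm2
  have hv2 := h.am.vtx _ hm2
  obtain ⟨M, W, _, _, _, _, ρ, ρ₂, Zb, j, π, hm⟩ := Crt.exists_vmod (c := 1) h le_rfl hm2
  obtain ⟨S, R, w, a, ho, hw, hwT, ha, hf, hf0⟩ := hp.key5 le_rfl hm
  obtain ⟨K, hK, hpu⟩ := hv2.ex
  have key : ∀ x : δ 2, (∀ z ∈ ZV p (δ 2), ⁅z, (x : H)⁆ ∈ cz (ZV p (δ 2)) ⊥ (δ 2)) →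
      ∀ v ∈ VG p 𝒱 (δ 2), ⁅(x : H), v⁆ ∈ cz (ZV p (δ 2)) ⊥ (δ 2) := by
    intro x hx v hv
    have h1 : ∀ z ∈ Zb, ρ x z = z := by
      intro z hz
      obtain ⟨z, rfl⟩ := hm.surj z
      rw [hm.zb] at hz
      obtain ⟨c, hc, hc2⟩ := hm.comm x z
      rw [← sub_eq_zero, ← hc2, hm.ker, hc, ← inv_mem_iff, commutatorElement_inv]
      exact hx z hz
    have h2 := hm.ext.C1_le hpu (by omega) ho hw hwT hf.1 hf0 h1
    obtain ⟨c, hc, hc2⟩ := hm.comm x ⟨v, hv⟩
    rw [h2, sub_self, hm.ker, hc] at hc2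
    exact hc2
  have hDn : δ 2 ≤ normalizer ((cz (ZV p (δ 2)) ⊥ (δ 2) : Subgroup H) : Set H) :=
    cz_norm (le_normalizer_ZV _) (fun x _ => mem_normalizer_bot x) le_normalizer
  have hVn : δ 2 ≤ normalizer (VG p 𝒱 (δ 2) : Set H) := hcase.nV
  have hCn : δ 2 ≤ normalizer ((δ 2 ⊓ cmod (VG p 𝒱 (δ 2)) (cz (ZV p (δ 2)) ⊥ (δ 2)) : Subgroup H) : Set H) := by
    refine le_normalizer_inf le_normalizer (fun g hg => ?_)
    exact mem_normalizer_cmod (hVn hg) (hDn hg)
  have key2 : δ 2 ⊓ cmod (VG p 𝒱 (δ 2)) (cz (ZV p (δ 2)) ⊥ (δ 2)) ≤ pCoreOf p (δ 2) := by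
    apply core_of_chain inf_le_left hCn hv2.char
    set L := pRes p (δ 2 ⊓ cmod (VG p 𝒱 (δ 2)) (cz (ZV p (δ 2)) ⊥ (δ 2))) with hL
    have hLL : pRes p L = L := pRes_pRes _
    have hLC : L ≤ δ 2 ⊓ cmod (VG p 𝒱 (δ 2)) (cz (ZV p (δ 2)) ⊥ (δ 2)) := pRes_le _ _
    have h1 : ⁅VG p 𝒱 (δ 2), L⁆ ≤ cz (ZV p (δ 2)) ⊥ (δ 2) := commutator_le_of_le_cmod (hLC.trans inf_le_right)
    have hD : L ≤ centralizer (cz (ZV p (δ 2)) ⊥ (δ 2) : Set H) := by
      rw [le_centralizer_iff]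
      exact cz_bot_le_cent.trans (centralizer_le (hLC.trans inf_le_left))
    have hZ : L ≤ centralizer (VG p 𝒱 (δ 2) : Set H) := by
      rw [← hLL]
      exact pRes_centralizes_of_chain ((pCoreOf_isPGroup p (δ 2)).to_le
        (cz_le.trans (hcase.ZC.trans (hcase.CV.trans hcase.VT)))) h1 hD
    rw [← hLL]
    refine pRes_centralizes_of_chain ((pCoreOf_isPGroup p (δ 2)).to_le hcase.VT) ?_ hZ
    refine (commutator_mono le_rfl ?_).trans hcase.res
    rw [← hLL]
    exact pRes_mono (hLC.trans inf_le_left)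
  intro x hx hxz
  apply key2
  exact ⟨hx, hDn hx, fun v hv => key ⟨x, hx⟩ hxz v hv⟩

end

section
variable {X : Type*} [Group X] [Finite X] {p q : ℕ} [Fact p.Prime]

/-- the two cases of rank one pushing up -/
theorem exists_case' {K : Subgroup X} [K.Normal] (hpu : PU p q K)
    (hchar : centralizer (pCore p X : Set X) ≤ pCore p X) {S : Subgroup X} (hS : SylIn p S ⊤)
    (hd : ∀ C : Subgroup S, C.Characteristic → C ≠ ⊥ → ¬ (C.map S.subtype).Normal) :
    (∃ Z : Subgroup X, Case1 p q ⊤ Z ∧ KerP p ⊤ Z) ∨ ∃ Z C V : Subgroup X, Case2 p q ⊤ Z C V ∧ KerP p ⊤ Z := by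
  have ha := amb_amal hpu hchar hS hd
  have hG : (reg X).range ∈ {Y : Subgroup (Equiv.Perm X) | ∃ h : Equiv.Perm X, Y = (reg X).range.map (MulAut.conj h).toMonoidHom} :=
    ⟨1, by rw [map_conj_one]⟩
  obtain ⟨c, hc⟩ := ha.exists_crt
  have hc0 := hc.pos
  obtain ⟨d, rfl⟩ : ∃ d, c = d + 1 := ⟨c - 1, by omega⟩
  have hd2 := hc.lt_three
  have e0 : ∀ Y : Subgroup (Equiv.Perm X), Y ≤ (reg X).range → (Y.comap (reg X)).map (reg X) = Y := fun Y hY =>
    map_comap_eq_self hY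
  rcases Nat.eq_zero_or_pos d with h0 | h0
  · subst h0
    left
    have h1 := Crt.case1 hc hG
    have h2 := h1.ker (ha.vtx _ hG)
    refine ⟨(ZV p (reg X).range).comap (reg X), ?_, ?_⟩
    · apply Case1.of_map (reg_injective (X := X))
      rw [e0 _ (h1.le.trans (pCoreOf_le p _)), ← MonoidHom.range_eq_map]
      exact h1
    · apply KerP.of_map (reg_injective (X := X))
      rw [e0 _ (h1.le.trans (pCoreOf_le p _)), ← MonoidHom.range_eq_map]
      exact h2
  · have : d = 1 := by omega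
    subst this
    right
    have h1 := Crt.case2 hc hG
    have h2 := Crt.ker hc hG
    have hV := h1.VT.trans (pCoreOf_le p _)
    generalize CS p {Y : Subgroup (Equiv.Perm X) | ∃ h : Equiv.Perm X,
      Y = (reg X).range.map (MulAut.conj h).toMonoidHom} (reg X).range = C' at h1 hV
    generalize VG p {Y : Subgroup (Equiv.Perm X) | ∃ h : Equiv.Perm X,
      Y = (reg X).range.map (MulAut.conj h).toMonoidHom} (reg X).range = V' at h1 hV
    refine ⟨(ZV p (reg X).range).comap (reg X), C'.comap (reg X), V'.comap (reg X), ?_, ?_⟩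
    · apply Case2.of_map (reg_injective (X := X))
      rw [e0 _ hV, e0 _ (h1.CV.trans hV), e0 _ ((h1.ZC.trans h1.CV).trans hV), ← MonoidHom.range_eq_map]
      exact h1
    · apply KerP.of_map (reg_injective (X := X))
      rw [e0 _ ((h1.ZC.trans h1.CV).trans hV), ← MonoidHom.range_eq_map]
      exact h2

end

end Cfsg.Agent.H47
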