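import Cfsg.Agent.H47.Ker2
import Cfsg.Agent.H46.Qd
import Cfsg.Agent.Hall.Gaschutz

set_option autoImplicit false
set_option linter.unusedSectionVars false
set_option linter.style.haveILetI false
open Cfsg Subgroup
open scoped commutatorElement

namespace Cfsg.Agent.H47

universe u

/-- complements in elementary abelian groups -/
theorem exists_compl_elem {X : Type*} [Group X] [Finite X] {p : ℕ} [Fact p.Prime] {A C : Subgroup X}
    (hab : ∀ a ∈ A, ∀ b ∈ A, a * b = b * a) (hp : ∀ a ∈ A, a ^ p = 1) (hCA : C ≤ A) :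
    ∃ B ≤ A, B ⊓ C = ⊥ ∧ B ⊔ C = A := by
  have hne : {B : Subgroup X | B ≤ A ∧ B ⊓ C = ⊥}.Nonempty := ⟨⊥, bot_le, bot_inf_eq _⟩
  obtain ⟨B, hB⟩ := (Set.toFinite {B : Subgroup X | B ≤ A ∧ B ⊓ C = ⊥}).exists_maximal hne
  obtain ⟨hBA, hBC⟩ := hB.prop
  refine ⟨B, hBA, hBC, le_antisymm (sup_le hBA hCA) ?_⟩
  intro a ha
  by_contra hcon
  have hzA : zpowers a ≤ A := by rw [zpowers_le]; exact ha
  have hn : zpowers a ≤ normalizer (B : Set X) := by
    refine le_trans ?_ (centralizer_le_normalizer (B : Subgroup X))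
    intro x hx
    rw [mem_centralizer_iff]
    intro b hb
    exact hab b (hBA hb) x (hzA hx)
  have hB' : (zpowers a ⊔ B) ⊓ C = ⊥ := by
    rw [eq_bot_iff]
    rintro x ⟨hx, hxC⟩
    have hx' : x ∈ zpowers a ⊔ B := hx
    rw [mem_sup_of_le_normalizer hn] at hx'
    obtain ⟨y, hy, b, hb, rfl⟩ := hx'
    obtain ⟨i, rfl⟩ := mem_zpowers_iff.1 hy
    by_cases hi : (p : ℤ) ∣ i
    · obtain ⟨k, rfl⟩ := hi
      have h1 : a ^ ((p : ℤ) * k) = 1 := by rw [zpow_mul, zpow_natCast, hp a ha, one_zpow]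
      rw [h1, one_mul] at hxC ⊢
      rw [← hBC]
      exact ⟨hb, hxC⟩
    · exfalso
      apply hcon
      have h1 : a ^ i ∈ B ⊔ C := by
        have h2 : a ^ i = a ^ i * b * b⁻¹ := by group
        rw [h2]
        exact mul_mem (mem_sup_right hxC) (mem_sup_left (inv_mem hb))
      have h2 : IsCoprime (p : ℤ) i := ((Nat.prime_iff_prime_int.1 (Fact.out : p.Prime)).coprime_iff_not_dvd).2 hi
      obtain ⟨u, v, huv⟩ := h2
      have h3 : a = (a ^ i) ^ v := by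
        have h4 : a ^ (u * p + v * i) = a := by rw [huv, zpow_one]
        rw [zpow_add, mul_comm u, zpow_mul, zpow_natCast, hp a ha, one_zpow, one_mul, mul_comm v, zpow_mul] at h4
        exact h4.symm
      rw [h3]
      exact zpow_mem h1 v
  have h1 : zpowers a ⊔ B ≤ B := hB.le_of_ge (y := zpowers a ⊔ B) ⟨sup_le hzA hBA, hB'⟩ le_sup_right
  exact hcon (mem_sup_left (h1 (mem_sup_left (mem_zpowers a))))

/-- recognition of `Qd` -/
theorem qd_iso {X : Type*} [Group X] {F : Type*} [Field F] (σ : X →* Matrix.SpecialLinearGroup (Fin 2) F)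
    (V Q : Subgroup X) [V.Normal] (hVσ : V ≤ σ.ker) (hQ : ∀ x ∈ Q, σ x = 1 → x = 1) (hQs : ∀ A, ∃ x ∈ Q, σ x = A)
    (ψ : ↥V → (Fin 2 → F)) (hψ : Function.Bijective ψ) (hadd : ∀ a b, ψ (a * b) = ψ a + ψ b)
    (heq : ∀ (x : X) (v w : V), (w : X) = x * v * x⁻¹ → ψ w = (σ x).1.mulVec (ψ v)) :
    Nonempty (↥(V ⊔ Q) ≃* ↥(Cfsg.qdOver F)) := by
  have hT : ∀ t : ↥(V ⊔ Q), ∃ (w : V) (k : Q), (t : X) = (w : X) * (k : X) := by
    rintro ⟨t, ht⟩
    rw [mem_sup_of_normal_left] at ht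
    obtain ⟨v, hv, k, hk, rfl⟩ := ht
    exact ⟨⟨v, hv⟩, ⟨k, hk⟩, rfl⟩
  choose wf kf hwk using hT
  have huniq : ∀ (w w' : V) (k k' : Q), (w : X) * (k : X) = (w' : X) * (k' : X) → w = w' ∧ k = k' := by
    intro w w' k k' h
    have h1 : σ k = σ k' := by
      have h2 := congrArg σ h
      rw [map_mul, map_mul, MonoidHom.mem_ker.1 (hVσ w.2), MonoidHom.mem_ker.1 (hVσ w'.2), one_mul, one_mul] at h2
      exact h2
    have h2 : (k : X) * (k' : X)⁻¹ = 1 := by
      apply hQ _ (mul_mem k.2 (inv_mem k'.2))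
      rw [map_mul, map_inv, h1, mul_inv_cancel]
    have h3 : k = k' := Subtype.ext (mul_inv_eq_one.1 h2)
    subst h3
    exact ⟨Subtype.ext (mul_right_cancel h), rfl⟩
  let Φ : ↥(V ⊔ Q) → ↥(Cfsg.qdOver F) := fun t => H46.qdElt (σ (kf t)) (ψ (wf t))
  have hΦ : ∀ (t : ↥(V ⊔ Q)) (w : V) (k : Q), (t : X) = (w : X) * (k : X) → Φ t = H46.qdElt (σ k) (ψ w) := by
    intro t w k h
    obtain ⟨h1, h2⟩ := huniq (wf t) w (kf t) k ((hwk t).symm.trans h)
    change H46.qdElt _ _ = _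
    rw [h1, h2]
  have hmem : ∀ (x : X) (w : V), x * w * x⁻¹ ∈ V := fun x w => (inferInstance : V.Normal).conj_mem _ w.2 x
  let Ψ : ↥(V ⊔ Q) →* ↥(Cfsg.qdOver F) := MonoidHom.mk' Φ (by
    intro t t'
    have h1 : ((t * t' : ↥(V ⊔ Q)) : X) =
        ((wf t * ⟨_, hmem (kf t) (wf t')⟩ : V) : X) * ((kf t * kf t' : Q) : X) := by
      change (t : X) * (t' : X) = (wf t : X) * ((kf t : X) * wf t' * (kf t : X)⁻¹) * ((kf t : X) * (kf t' : X))
      rw [hwk t, hwk t']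
      group
    rw [hΦ _ _ _ h1]
    change _ = H46.qdElt _ _ * H46.qdElt _ _
    rw [H46.qdElt_mul]
    have h2 : σ ((kf t * kf t' : Q) : X) = σ (kf t) * σ (kf t') := map_mul σ _ _
    rw [h2]
    congr 1
    rw [hadd, add_comm]
    congr 1
    exact heq _ _ _ rfl)
  refine ⟨MulEquiv.ofBijective Ψ ⟨?_, ?_⟩⟩
  · rw [injective_iff_map_eq_one]
    intro t ht
    have h1 : H46.qdElt (σ (kf t)) (ψ (wf t)) = H46.qdElt (1 : Matrix.SpecialLinearGroup (Fin 2) F) 0 := by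
      rw [H46.qdElt_one]; exact ht
    obtain ⟨h2, h3⟩ := H46.qdElt_injective h1
    have h4 : ψ 1 = 0 := by
      have := hadd 1 1
      rw [mul_one] at this
      exact left_eq_add.1 this
    have h5 : wf t = 1 := hψ.1 (h3.trans h4.symm)
    have h6 := hQ _ (kf t).2 h2
    apply Subtype.ext
    rw [hwk t, h5, h6]
    simp
  · intro M
    obtain ⟨A, v, rfl⟩ := H46.exists_qdElt M
    obtain ⟨x, hx, rfl⟩ := hQs A
    obtain ⟨w, rfl⟩ := hψ.2 v
    exact ⟨⟨(w : X) * x, mul_mem (mem_sup_left w.2) (mem_sup_right hx)⟩, hΦ _ w ⟨x, hx⟩ rfl⟩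

/-- a group with a perfect quotient modulo `T` has no `p`-quotient containing `T` -/
theorem eq_top_of_pquot {X Y : Type*} [Group X] [Finite X] [Group Y] {p : ℕ} [Fact p.Prime] (σ : X →* Y)
    (hσ : Function.Surjective σ) (hY : commutator Y = ⊤) {C : Subgroup X} [C.Normal] (hC : σ.ker ≤ C)
    (hp : ∀ x : X, ∃ k : ℕ, x ^ p ^ k ∈ C) : C = ⊤ := by
  by_contra hcon
  haveI : Nontrivial (X ⧸ C) := QuotientGroup.nontrivial_iff.2 hcon
  have hPG : IsPGroup p (X ⧸ C) := by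
    intro x
    obtain ⟨x, rfl⟩ := QuotientGroup.mk_surjective x
    obtain ⟨k, hk⟩ := hp x
    exact ⟨k, by rw [← QuotientGroup.mk_pow, QuotientGroup.eq_one_iff]; exact hk⟩
  haveI : Group.IsNilpotent (X ⧸ C) := hPG.isNilpotent
  have h1 := Group.IsSolvable.commutator_lt_top_of_nontrivial (X ⧸ C)
  apply h1.ne
  have h2 : commutator X ⊔ σ.ker = ⊤ := by
    rw [← comap_map_eq, commutator_def, map_commutator, ← MonoidHom.range_eq_map, MonoidHom.range_eq_top.2 hσ,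
      ← commutator_def, hY, comap_top]
  have h3 : commutator X ⊔ C = ⊤ := by
    rw [eq_top_iff, ← h2]; exact sup_le_sup_left hC _
  have h4 : (commutator X).map (QuotientGroup.mk' C) = ⊤ := by
    rw [map_mk_eq_top_iff]; exact h3
  have h5 : (commutator X).map (QuotientGroup.mk' C) = commutator (X ⧸ C) := by
    change (⁅(⊤ : Subgroup X), ⊤⁆ : Subgroup X).map _ = (⁅(⊤ : Subgroup (X ⧸ C)), ⊤⁆ : Subgroup (X ⧸ C))
    rw [map_commutator, ← MonoidHom.range_eq_map, QuotientGroup.range_mk']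
  rw [← h5, h4]

section
variable {X : Type u} [Group X] [Finite X] {p q : ℕ} [Fact p.Prime]

theorem qd_split (hp : 5 ≤ p) (hq : 5 ≤ q) {Z S B : Subgroup X} (hv : Vtx p q (⊤ : Subgroup X))
    (h : Case1 p q (⊤ : Subgroup X) Z) (hker : KerP p ⊤ Z)
    (hTc : ⁅pCore p X, pCore p X⁆ = ⊥) (hTp : ∀ x ∈ pCore p X, x ^ p = 1) (hS : SylIn p S ⊤)
    (hBT : B ⊓ pCore p X = ⊥) (hBS : B ⊔ pCore p X = S) {F : Type*} [Field F] [Fintype F]
    (hF : Fintype.card F = q) :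
    ∃ G₀ E : Subgroup X, Cfsg.IsInternalDirectProduct G₀ E ⊤ ∧ Cfsg.IsElementaryAbelian p E ∧
      Nonempty (↥G₀ ≃* ↥(Cfsg.qdOver F)) := by
  have hpp : p.Prime := Fact.out
  have hT : pCoreOf p (⊤ : Subgroup X) = pCore p X := pCoreOf_top p
  have hZn : Z.Normal := normal_of_top_le h.norm
  haveI hTn : (pCore p X).Normal := pCore_normal p X
  have hZT : Z ≤ pCore p X := h.le.trans hT.le
  have hZZ : ⁅Z, Z⁆ ≤ cz Z ⊥ ⊤ := by
    have h1 : ⁅Z, Z⁆ = ⊥ := by
      rw [commutator_eq_bot_iff_le_centralizer]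
      exact h.cent.trans (centralizer_le h.le)
    rw [h1]; exact bot_le
  obtain ⟨σ, f, hN⟩ := h.nat.nm hv le_top bot_le h.norm (fun x _ => mem_normalizer_bot x) hZZ hF
  let σ' : X →* Matrix.SpecialLinearGroup (Fin 2) F := σ.comp (Subgroup.topEquiv (G := X)).symm.toMonoidHom
  have hσ' : ∀ x : X, σ' x = σ ⟨x, mem_top x⟩ := fun x => rfl
  have hs : Function.Surjective σ' := by
    intro m
    obtain ⟨x, rfl⟩ := hN.1 m
    exact ⟨x, rfl⟩
  have hk : σ'.ker = pCore p X := by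
    ext x
    rw [MonoidHom.mem_ker, hσ', hN.ker_iff]
    constructor
    · intro h1
      have := hker x (mem_top x) h1
      rwa [pCoreOf_top] at this
    · intro h1 v hv
      have h2 : ⁅v, x⁆ = 1 := by
        rw [commutatorElement_eq_one_iff_mul_comm]
        exact (mem_centralizer_iff.1 (h.cent hv) x (by rw [pCoreOf_top]; exact h1)).symm
      change ⁅v, x⁆ ∈ cz Z ⊥ ⊤
      rw [h2]; exact one_mem _
  have hact : ∀ (g : X) (v w : Z), (w : X) = g * v * g⁻¹ → f w = (σ' g).1.mulVec (f v) := fun g v w hw =>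
    hN.act ⟨g, mem_top g⟩ v w hw
  have hTcm : ∀ x ∈ pCore p X, ∀ y ∈ pCore p X, x * y = y * x := by
    intro x hx y hy
    rw [← commutatorElement_eq_one_iff_mul_comm, ← mem_bot, ← hTc]
    exact commutator_mem_commutator hx hy
  -- the involution
  obtain ⟨t, ht2, htσ⟩ : ∃ t : X, t ^ 2 = 1 ∧ σ' t = -1 := by
    obtain ⟨x, hx⟩ := hs (-1)
    have h1 : x ^ 2 ∈ pCore p X := by
      rw [← hk, MonoidHom.mem_ker, map_pow, hx]
      simp
    refine ⟨x ^ p, ?_, ?_⟩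
    · rw [← pow_mul, mul_comm, pow_mul, hTp _ h1]
    · rw [map_pow, hx]
      exact (hpp.odd_of_ne_two (by omega)).neg_one_pow
  have htp : t ∈ pRes p (⊤ : Subgroup X) := by
    apply mem_pRes_of_coprime (mem_top t)
    have h1 : orderOf t ∣ 2 := orderOf_dvd_of_pow_eq_one ht2
    have h2 : Nat.Coprime 2 p := (Nat.coprime_primes Nat.prime_two hpp).2 (by omega)
    exact Nat.Coprime.coprime_dvd_left h1 h2
  -- conjugates of t act on T as t
  have hconj : ∀ g x : X, x ∈ pCore p X → t * (g * x * g⁻¹) * t⁻¹ = g * (t * x * t⁻¹) * g⁻¹ := by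
    intro g x hx
    have h1 : g⁻¹ * t * g * t⁻¹ ∈ pCore p X := by
      rw [← hk, MonoidHom.mem_ker, map_mul, map_mul, map_mul, map_inv, map_inv, htσ]
      rw [mul_neg, neg_mul, mul_one, inv_mul_cancel]
      simp
    have h2 := hTcm _ h1 _ (hTn.conj_mem x hx t)
    have h3 : t * (g * x * g⁻¹) * t⁻¹ = g * ((g⁻¹ * t * g * t⁻¹) * (t * x * t⁻¹) * (g⁻¹ * t * g * t⁻¹)⁻¹) * g⁻¹ := by
      group
    rw [h3, h2]; group
  -- the two eigenspaces
  let V : Subgroup X :=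
    { carrier := {x | x ∈ pCore p X ∧ t * x * t⁻¹ = x⁻¹}
      one_mem' := ⟨one_mem _, by group⟩
      mul_mem' := by
        rintro a b ⟨ha, ha2⟩ ⟨hb, hb2⟩
        refine ⟨mul_mem ha hb, ?_⟩
        have : t * (a * b) * t⁻¹ = (t * a * t⁻¹) * (t * b * t⁻¹) := by group
        rw [this, ha2, hb2, mul_inv_rev]
        exact hTcm _ (inv_mem ha) _ (inv_mem hb)
      inv_mem' := by
        rintro a ⟨ha, ha2⟩
        refine ⟨inv_mem ha, ?_⟩
        have : t * a⁻¹ * t⁻¹ = (t * a * t⁻¹)⁻¹ := by group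
        rw [this, ha2] }
  let E : Subgroup X :=
    { carrier := {x | x ∈ pCore p X ∧ t * x * t⁻¹ = x}
      one_mem' := ⟨one_mem _, by group⟩
      mul_mem' := by
        rintro a b ⟨ha, ha2⟩ ⟨hb, hb2⟩
        refine ⟨mul_mem ha hb, ?_⟩
        have : t * (a * b) * t⁻¹ = (t * a * t⁻¹) * (t * b * t⁻¹) := by group
        rw [this, ha2, hb2]
      inv_mem' := by
        rintro a ⟨ha, ha2⟩
        refine ⟨inv_mem ha, ?_⟩
        have : t * a⁻¹ * t⁻¹ = (t * a * t⁻¹)⁻¹ := by group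
        rw [this, ha2] }
  have hVmem : ∀ x, x ∈ V ↔ x ∈ pCore p X ∧ t * x * t⁻¹ = x⁻¹ := fun x => Iff.rfl
  have hEmem : ∀ x, x ∈ E ↔ x ∈ pCore p X ∧ t * x * t⁻¹ = x := fun x => Iff.rfl
  haveI hVn : V.Normal := by
    refine ⟨fun x hx g => ?_⟩
    refine ⟨hTn.conj_mem x hx.1 g, ?_⟩
    rw [hconj g x hx.1, hx.2]; group
  haveI hEn : E.Normal := by
    refine ⟨fun x hx g => ?_⟩
    refine ⟨hTn.conj_mem x hx.1 g, ?_⟩
    rw [hconj g x hx.1, hx.2]
  have hsq : ∀ x ∈ pCore p X, x ^ 2 = 1 → x = 1 := by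
    intro x hx h2
    have h1 : Nat.Coprime p 2 := (Nat.coprime_primes hpp Nat.prime_two).2 (by omega)
    have h3 := orderOf_dvd_of_pow_eq_one h2
    have h4 := orderOf_dvd_of_pow_eq_one (hTp x hx)
    exact orderOf_eq_one_iff.1 (Nat.eq_one_of_dvd_coprimes h1 h4 h3)
  have hVT : V ≤ pCore p X := fun x hx => hx.1
  have hET : E ≤ pCore p X := fun x hx => hx.1
  have hVE : ∀ x, x ∈ V → x ∈ E → x = 1 := by
    intro x h1 h2
    apply hsq x h1.1
    have h3 : x⁻¹ = x := by rw [← h1.2, h2.2]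
    rw [pow_two]
    nth_rewrite 1 [← h3]
    rw [inv_mul_cancel]
  -- halves
  obtain ⟨k, hk2⟩ : ∃ k, 2 * k = p + 1 := by
    obtain ⟨r, hr⟩ := hpp.odd_of_ne_two (by omega)
    exact ⟨r + 1, by omega⟩
  have htt : ∀ x : X, t * (t * x * t⁻¹) * t⁻¹ = x := by
    intro x
    have h1 : t * (t * x * t⁻¹) * t⁻¹ = t ^ 2 * x * (t ^ 2)⁻¹ := by rw [pow_two]; group
    rw [h1, ht2]; group
  have hsplit : ∀ x ∈ pCore p X, ∃ v ∈ V, ∃ e ∈ E, x = v * e := by
    intro x hx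
    have hxt : t * x * t⁻¹ ∈ pCore p X := hTn.conj_mem x hx t
    have hv' : x * (t * x * t⁻¹)⁻¹ ∈ V := by
      refine ⟨mul_mem hx (inv_mem hxt), ?_⟩
      have h1 : t * (x * (t * x * t⁻¹)⁻¹) * t⁻¹ = (t * x * t⁻¹) * (t * (t * x * t⁻¹) * t⁻¹)⁻¹ := by group
      rw [h1, htt]; group
    have he' : x * (t * x * t⁻¹) ∈ E := by
      refine ⟨mul_mem hx hxt, ?_⟩
      have h1 : t * (x * (t * x * t⁻¹)) * t⁻¹ = (t * x * t⁻¹) * (t * (t * x * t⁻¹) * t⁻¹) := by group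
      rw [h1, htt, hTcm _ hx _ hxt]
    refine ⟨_, pow_mem hv' k, _, pow_mem he' k, ?_⟩
    have hc : Commute (x * (t * x * t⁻¹)⁻¹) (x * (t * x * t⁻¹)) :=
      hTcm _ (mul_mem hx (inv_mem hxt)) _ (mul_mem hx hxt)
    rw [← hc.mul_pow]
    have h1 : x * (t * x * t⁻¹)⁻¹ * (x * (t * x * t⁻¹)) = x ^ 2 := by
      have h2 := hTcm _ (inv_mem hxt) _ hx
      calc x * (t * x * t⁻¹)⁻¹ * (x * (t * x * t⁻¹)) = x * ((t * x * t⁻¹)⁻¹ * x) * (t * x * t⁻¹) := by group
        _ = x ^ 2 := by rw [h2, pow_two]; group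
    rw [h1, ← pow_mul, hk2, pow_succ, hTp x hx, one_mul]
  -- V ≤ Z
  have hVZ : V ≤ Z := by
    intro x hx
    have h1 : ⁅x, t⁆ ∈ Z := h.res (commutator_mem_commutator (by rw [hT]; exact hx.1) htp)
    have h2 : ⁅x, t⁆ = x ^ 2 := by
      rw [commutatorElement_def]
      have h3 : x * t * x⁻¹ * t⁻¹ = x * (t * x * t⁻¹)⁻¹ := by group
      rw [h3, hx.2, inv_inv, pow_two]
    rw [h2] at h1
    have h3 : x = (x ^ 2) ^ k := by rw [← pow_mul, hk2, pow_succ, hTp x hx.1, one_mul]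
    rw [h3]; exact pow_mem h1 k
  have h2F : (2 : F) ≠ 0 := by
    intro h2
    haveI : CharP F p := by
      obtain ⟨n, hn⟩ : ∃ n, q = p ^ n := by
        have h5 := hS.isPGroup
        obtain ⟨n, hn⟩ := (IsPGroup.iff_card.1 h5)
        have h6 := hv.card hS
        rw [hn] at h6
        have h7 : q ∣ p ^ n := Dvd.intro _ h6.symm
        obtain ⟨m, -, hm⟩ := (Nat.dvd_prime_pow hpp).1 h7
        exact ⟨m, hm⟩
      exact charP_of_card_eq_prime_pow (hF.trans hn)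
    have h3 := (CharP.cast_eq_zero_iff F p 2).1 (by exact_mod_cast h2)
    have h4 := (Nat.prime_dvd_prime_iff_eq hpp Nat.prime_two).1 h3
    omega
  have hneg : (((-1 : Matrix.SpecialLinearGroup (Fin 2) F)).1 : Matrix (Fin 2) (Fin 2) F) = -1 := by simp
  have hZE : ∀ x, x ∈ Z → x ∈ E → x ∈ cz Z ⊥ ⊤ := by
    intro x hxZ hxE
    rw [← hN.2.2.2.1 ⟨x, hxZ⟩]
    have h1 := hact t ⟨x, hxZ⟩ ⟨x, hxZ⟩ hxE.2.symm
    rw [htσ, hneg, Matrix.neg_mulVec, Matrix.one_mulVec] at h1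
    funext i
    have h2 := congrFun h1 i
    rw [Pi.neg_apply] at h2
    have h3 : (2 : F) * f ⟨x, hxZ⟩ i = 0 := by linear_combination h2
    exact (mul_eq_zero.1 h3).resolve_left h2F
  have hZsplit : ∀ x ∈ Z, ∃ v ∈ V, ∃ e ∈ cz Z ⊥ (⊤ : Subgroup X), x = v * e := by
    intro x hx
    obtain ⟨v, hv, e, he, rfl⟩ := hsplit x (hZT hx)
    refine ⟨v, hv, e, hZE e ?_ he, rfl⟩
    have : e = v⁻¹ * (v * e) := by group
    rw [this]
    exact mul_mem (inv_mem (hVZ hv)) hx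
  have hDE : ∀ x ∈ cz Z ⊥ (⊤ : Subgroup X), x ∈ E := by
    intro x hx
    refine ⟨hZT hx.1, ?_⟩
    have h1 : ⁅x, t⁆ = 1 := mem_bot.1 (hx.2.2 t (mem_top t))
    have h2 := commutatorElement_eq_one_iff_mul_comm.1 h1
    rw [← h2]; group
  -- the coordinate map on V
  let ψ : ↥V → (Fin 2 → F) := fun v => f ⟨v, hVZ v.2⟩
  have hψadd : ∀ a b, ψ (a * b) = ψ a + ψ b := fun a b => hN.2.2.1 ⟨a, hVZ a.2⟩ ⟨b, hVZ b.2⟩
  have hψ0 : ∀ a, ψ a = 0 → a = 1 := by
    intro a ha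
    have h1 := (hN.2.2.2.1 ⟨a, hVZ a.2⟩).1 ha
    exact Subtype.ext (hVE a a.2 (hDE a h1))
  have hψ1 : ψ 1 = 0 := by
    have := hψadd 1 1
    rw [mul_one] at this
    exact left_eq_add.1 this
  have hψinj : Function.Injective ψ := by
    intro a b hab
    have h1 : ψ (a * b⁻¹) = 0 := by
      have h2 := hψadd b b⁻¹
      rw [mul_inv_cancel, hψ1] at h2
      rw [hψadd, hab, ← h2]
    exact mul_inv_eq_one.1 (hψ0 _ h1)
  have hψsurj : Function.Surjective ψ := by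
    intro u
    obtain ⟨z, rfl⟩ := hN.2.1 u
    obtain ⟨v, hv, e, he, hz⟩ := hZsplit z z.2
    refine ⟨⟨v, hv⟩, ?_⟩
    have h1 : z = ⟨v, hVZ hv⟩ * ⟨e, cz_le he⟩ := Subtype.ext hz
    rw [h1, hN.2.2.1, (hN.2.2.2.1 ⟨e, cz_le he⟩).2 he, add_zero]
  -- E is central
  have hEC : ∀ e ∈ E, ∀ x : X, e * x = x * e := by
    haveI hCn : (centralizer (E : Set X)).Normal := inferInstance
    have h1 : pRes p (⊤ : Subgroup X) ≤ centralizer (E : Set X) := by
      rw [← pRes_pRes]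
      apply pRes_centralizes_of_chain (Q := cz Z ⊥ (⊤ : Subgroup X))
        ((pCore_isPGroup p X).to_le (cz_le.trans hZT))
      · rw [commutator_le]
        intro e he r hr
        apply hZE
        · exact h.res (commutator_mem_commutator (by rw [hT]; exact he.1) hr)
        · exact (commutator_le_left E ⊤) (commutator_mem_commutator he (mem_top r))
      · rw [le_centralizer_iff]
        exact cz_bot_le_cent.trans (centralizer_le le_top)
    have h2 : centralizer (E : Set X) = ⊤ := by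
      obtain ⟨a, ha, ha2⟩ : ∃ a : F, a ≠ 0 ∧ a ^ 2 ≠ 1 := by
        classical
        by_contra hcon
        push Not at hcon
        have h2 : (Finset.univ : Finset F) ⊆ {0, 1, -1} := by
          intro a _
          by_cases ha : a = 0
          · simp [ha]
          · have := hcon a ha
            rcases (sq_eq_one_iff (a := a)).1 this with h | h
            · simp [h]
            · simp [h]
        have h3 := Finset.card_le_card h2
        have h4 : ({0, 1, -1} : Finset F).card ≤ 3 := Finset.card_le_three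
        rw [Finset.card_univ, hF] at h3
        omega
      apply eq_top_of_pquot (p := p) σ' hs (Matrix.SL2.commutator_eq_top ha ha2)
      · rw [hk]
        intro x hx
        rw [mem_centralizer_iff]
        intro e he
        exact hTcm e (hET he) x hx
      · intro x
        have h3 : x ∈ S ⊔ pRes p (⊤ : Subgroup X) := by rw [sup_comm, hS.pRes_sup]; trivial
        obtain ⟨k, hk⟩ := pow_mem_of_sup hS.isPGroup (hS.le.trans (le_normalizer_pRes p ⊤)) h3
        exact ⟨k, h1 hk⟩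
    intro e he x
    have h3 : x ∈ centralizer (E : Set X) := by rw [h2]; trivial
    exact mem_centralizer_iff.1 h3 e he
  -- the complement
  obtain ⟨Q, hQ⟩ : ∃ Q : Subgroup X, Subgroup.IsComplement' (pCore p X) Q := by
    haveI : IsMulCommutative (pCore p X) := ⟨⟨fun a b => Subtype.ext (hTcm a a.2 b b.2)⟩⟩
    have hST : pCore p X ≤ S := pCore_le_sylIn hS
    have hBS' : B ≤ S := by rw [← hBS]; exact le_sup_left
    refine Hall.gaschutz_exists (pCore p X) S hST ?_ B hBS' hBT (by rw [sup_comm]; exact hBS)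
    obtain ⟨P, hP⟩ := hS.sylow_of_top
    obtain ⟨n, hn⟩ := IsPGroup.iff_card.1 (pCore_isPGroup p X)
    rw [hn]
    apply Nat.Coprime.pow_left
    rw [hpp.coprime_iff_not_dvd, ← hP]
    exact P.not_dvd_index
  have hQT : ∀ x ∈ Q, σ' x = 1 → x = 1 := by
    intro x hx h1
    have h2 : x ∈ pCore p X := by rw [← hk]; exact h1
    have h3 := hQ.disjoint
    rw [disjoint_iff] at h3
    have h4 : x ∈ pCore p X ⊓ Q := ⟨h2, hx⟩
    rw [h3] at h4
    exact h4
  have hQs : ∀ A, ∃ x ∈ Q, σ' x = A := by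
    intro A
    obtain ⟨g, rfl⟩ := hs A
    have h1 : g ∈ pCore p X ⊔ Q := by rw [hQ.sup_eq_top]; trivial
    rw [mem_sup_of_normal_left] at h1
    obtain ⟨y, hy, x, hx, rfl⟩ := h1
    refine ⟨x, hx, ?_⟩
    rw [← hk] at hy
    rw [map_mul, MonoidHom.mem_ker.1 hy, one_mul]
  refine ⟨V ⊔ Q, E, ⟨le_top, le_top, ?_, ?_, ?_⟩, ⟨⟨⟨fun a b => Subtype.ext (hEC a a.2 b)⟩⟩, ?_⟩, ?_⟩
  · intro a _ b hb
    exact (hEC b hb a).symm
  · rw [eq_bot_iff]
    rintro x ⟨hx, hxE⟩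
    have hx' : x ∈ V ⊔ Q := hx
    have hxE' : x ∈ E := hxE
    rw [mem_sup_of_normal_left] at hx'
    obtain ⟨v, hv, y, hy, rfl⟩ := hx'
    have h1 : σ' y = 1 := by
      have h2 : v * y ∈ σ'.ker := by rw [hk]; exact hET hxE'
      have h3 : v ∈ σ'.ker := by rw [hk]; exact hVT hv
      rw [MonoidHom.mem_ker, map_mul, MonoidHom.mem_ker.1 h3, one_mul] at h2
      exact h2
    have h2 := hQT y hy h1
    rw [h2, mul_one] at hxE' ⊢
    rw [mem_bot]
    exact hVE v hv hxE'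
  · rw [eq_top_iff, ← hQ.sup_eq_top]
    apply sup_le
    · intro x hx
      obtain ⟨v, hv, e, he, rfl⟩ := hsplit x hx
      exact mul_mem (mem_sup_left (mem_sup_left hv)) (mem_sup_right he)
    · exact le_sup_right.trans le_sup_left
  · intro a ha
    exact hTp a (hET ha)
  · exact qd_iso σ' V Q (by rw [hk]; exact hVT) hQT hQs ψ ⟨hψinj, hψsurj⟩ hψadd
      (fun x v w hw => hact x ⟨v, hVZ v.2⟩ ⟨w, hVZ w.2⟩ hw)

end

end Cfsg.Agent.H47
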