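import Cfsg.Agent.H47.Qd5
import Cfsg.Agent.H47.PRed2
import Cfsg.Agent.H47.JA
import Cfsg.Agent.H20.DihQuat

set_option autoImplicit false
set_option linter.unusedSectionVars false
set_option linter.style.haveILetI false
open Cfsg Subgroup
open scoped commutatorElement

namespace Cfsg.Agent.H47

theorem zmod2_dec : ∀ r : ZMod 2, r ^ 2 = 1 → r = 1 := by decide

theorem psl2_two : Nonempty (DihedralGroup 3 ≃* Matrix.ProjectiveSpecialLinearGroup (Fin 2) (ZMod 2)) := by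
  have hc : Subgroup.center (Matrix.SpecialLinearGroup (Fin 2) (ZMod 2)) = ⊥ := by
    rw [eq_bot_iff]
    intro z hz
    rw [Matrix.SpecialLinearGroup.mem_center_iff] at hz
    obtain ⟨r, hr, hrz⟩ := hz
    rw [Fintype.card_fin] at hr
    have : r = 1 := zmod2_dec r hr
    rw [Subgroup.mem_bot]
    apply Subtype.ext
    rw [← hrz, this]; simp
  let x : Matrix.SpecialLinearGroup (Fin 2) (ZMod 2) := ⟨!![0, 1; 1, 1], by decide⟩
  let s : Matrix.SpecialLinearGroup (Fin 2) (ZMod 2) := ⟨!![0, 1; 1, 0], by decide⟩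
  obtain ⟨Φ, h1, h2⟩ := H20.exists_dihedralHom (N := 3) (x := x) (s := s) (by decide) (by decide) (by decide)
  have hinj : Function.Injective Φ := by
    rw [injective_iff_map_eq_one]
    intro g h
    have key : ∀ (i : ZMod 3), (x ^ i.val = 1 → i = 0) ∧ ¬ (s * x ^ i.val = 1) := by decide
    rcases g with i | i
    · rw [h1] at h
      rw [(key i).1 h]; rfl
    · rw [h2] at h
      exact absurd h (key i).2
  have hcard : Nat.card (DihedralGroup 3) = Nat.card (Matrix.SpecialLinearGroup (Fin 2) (ZMod 2)) := by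
    rw [DihedralGroup.nat_card, H46.card_sl_two_zmod_two]
  have e1 : DihedralGroup 3 ≃* Matrix.SpecialLinearGroup (Fin 2) (ZMod 2) :=
    MulEquiv.ofBijective Φ ((Nat.bijective_iff_injective_and_card _).2 ⟨hinj, hcard⟩)
  exact ⟨e1.trans ((QuotientGroup.quotientMulEquivOfEq hc).trans QuotientGroup.quotientBot).symm⟩

theorem rankOne_dih {Γ : Type*} [Group Γ] [Finite Γ] (e : Nonempty (Γ ≃* DihedralGroup 3)) : RankOne 2 2 Γ := by
  obtain ⟨e⟩ := e
  obtain ⟨e'⟩ := psl2_two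
  haveI : Fact (Nat.Prime 2) := ⟨Nat.prime_two⟩
  have h := RankOne.of_psl (p := 2) (n := 1) (F := ZMod 2) (by rw [ZMod.card]; norm_num) ⟨e.trans e'⟩
  exact h


section dih
variable {X : Type*} [Group X] [Finite X] {q : ℕ}

theorem two_pow_ne {q : ℕ} (hq : q.Prime) (hq2 : q ≠ 2) {i : ZMod q} {k : ℕ}
    (h : ((2 ^ k : ℕ) : ZMod q) * i = 0) : i = 0 := by
  haveI : Fact q.Prime := ⟨hq⟩
  rcases mul_eq_zero.1 h with h1 | h1
  · exfalso
    have h2 := (ZMod.natCast_eq_zero_iff _ _).1 h1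
    have h3 := hq.dvd_of_dvd_pow h2
    exact hq2 ((Nat.prime_dvd_prime_iff_eq hq Nat.prime_two).1 h3)
  · exact h1

theorem r_pow {q : ℕ} (i : ZMod q) (n : ℕ) : (DihedralGroup.r i) ^ n = DihedralGroup.r ((n : ZMod q) * i) := by
  induction n with
  | zero => simp
  | succ n ih => rw [pow_succ, ih, DihedralGroup.r_mul_r]; congr 1; push_cast; ring

/-- `2`-elements of dihedral groups -/
theorem dih_sr (hq : q.Prime) (hq2 : q ≠ 2) {x : DihedralGroup q} {k : ℕ} (h : x ^ (2 ^ k) = 1) (h1 : x ≠ 1) :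
    ∃ i, x = DihedralGroup.sr i := by
  rcases x with i | i
  · exfalso
    rw [r_pow, DihedralGroup.one_def] at h
    have h2 : ((2 ^ k : ℕ) : ZMod q) * i = 0 := by
      injection h
    apply h1
    rw [two_pow_ne hq hq2 h2]; rfl
  · exact ⟨i, rfl⟩

variable {T S : Subgroup X} (π : X →* DihedralGroup q)

theorem dih_inv (hq : q.Prime) (hq2 : q ≠ 2) (hk : π.ker = T) (hS : IsPGroup 2 S) {s : X} (hs : s ∈ S) (hsT : s ∉ T) :
    ∃ i, π s = DihedralGroup.sr i := by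
  obtain ⟨k, hk2⟩ := hS ⟨s, hs⟩
  have h1 : s ^ (2 ^ k) = 1 := congrArg Subtype.val hk2
  refine dih_sr hq hq2 (k := k) (by rw [← map_pow, h1, map_one]) ?_
  rw [← hk] at hsT
  exact hsT

theorem dih_ex (hq : q.Prime) (_hq2 : q ≠ 2) (hπ : Function.Surjective π) (hk : π.ker = T) (hS : SylIn 2 S ⊤)
    (hTS : T ≤ S) : ∃ s ∈ S, s ∉ T := by
  by_contra hcon
  push Not at hcon
  have h1 : S = T := le_antisymm hcon hTS
  haveI : Fact (Nat.Prime 2) := ⟨Nat.prime_two⟩
  haveI : NeZero q := ⟨hq.ne_zero⟩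
  obtain ⟨P, hP⟩ := hS.sylow_of_top
  have h2 := P.not_dvd_index
  apply h2
  rw [hP, h1, ← hk, Subgroup.index_ker, MonoidHom.range_eq_top.2 hπ]
  rw [Nat.card_congr (Subgroup.topEquiv (G := DihedralGroup q)).toEquiv, DihedralGroup.nat_card]
  exact Dvd.intro _ rfl

theorem dih_sup (hq : q.Prime) (hq2 : q ≠ 2) (hπ : Function.Surjective π) (hk : π.ker = T) (hS : SylIn 2 S ⊤)
    (hTS : T ≤ S) {N : Subgroup X} [N.Normal] (hTN : T ≤ N) (hne : ¬ N ≤ T) : N ⊔ S = ⊤ := by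
  haveI : Fact q.Prime := ⟨hq⟩
  obtain ⟨n, hn, hnT⟩ := SetLike.not_le_iff_exists.1 hne
  -- a rotation
  obtain ⟨m, hm, j, hj, hmj⟩ : ∃ m ∈ N, ∃ j : ZMod q, j ≠ 0 ∧ π m = DihedralGroup.r j := by
    rcases hx : π n with i | i
    · refine ⟨n, hn, i, ?_, hx⟩
      rintro rfl
      apply hnT
      rw [← hk, MonoidHom.mem_ker, hx]; rfl
    · obtain ⟨g, hg⟩ := hπ (DihedralGroup.r 1)
      refine ⟨n * (g * n * g⁻¹), mul_mem hn (‹N.Normal›.conj_mem n hn g), -2, ?_, ?_⟩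
      · rw [neg_ne_zero]
        intro h2
        have h3 := (ZMod.natCast_eq_zero_iff 2 q).1 (by exact_mod_cast h2)
        exact hq2 ((Nat.prime_dvd_prime_iff_eq hq Nat.prime_two).1 h3)
      · rw [map_mul, map_mul, map_mul, map_inv, hx, hg]
        simp only [DihedralGroup.inv_r, DihedralGroup.r_mul_sr, DihedralGroup.sr_mul_r, DihedralGroup.sr_mul_sr]
        congr 1
        ring
  obtain ⟨s, hs, hsT⟩ := dih_ex π hq hq2 hπ hk hS hTS
  obtain ⟨i, hi⟩ := dih_inv π hq hq2 hk hS.isPGroup hs hsT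
  have hrot : ∀ x k, π x = DihedralGroup.r k → x ∈ N := by
    intro x k hx
    have h1 : π (x * (m ^ (k * j⁻¹ : ZMod q).val)⁻¹) = 1 := by
      rw [map_mul, map_inv, map_pow, hx, hmj, r_pow, DihedralGroup.inv_r, DihedralGroup.r_mul_r,
        DihedralGroup.one_def]
      congr 1
      rw [ZMod.natCast_val, ZMod.cast_id', id, mul_assoc, inv_mul_cancel₀ hj, mul_one, add_neg_cancel]
    have h2 : x * (m ^ (k * j⁻¹ : ZMod q).val)⁻¹ ∈ N := hTN (by rw [← hk]; exact h1)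
    have h3 := mul_mem h2 (pow_mem hm (k * j⁻¹ : ZMod q).val)
    rwa [inv_mul_cancel_right] at h3
  rw [eq_top_iff]
  intro x _
  rcases hx : π x with k | k
  · exact mem_sup_left (hrot x k hx)
  · have h1 : π (s⁻¹ * x) = DihedralGroup.r (k - i) := by
      rw [map_mul, map_inv, hi, hx, DihedralGroup.inv_sr, DihedralGroup.sr_mul_sr]
    have h2 : x = s * (s⁻¹ * x) := by group
    rw [h2]
    exact mul_mem (mem_sup_right hs) (mem_sup_left (hrot _ _ h1))

/-- fixed points of a power of a prime order action -/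
theorem fix_of_small {α : Type*} [Finite α] (σ : Equiv.Perm α) {q : ℕ} (hq : q.Prime) (hσ : σ ^ q = 1)
    (hc : Nat.card α < q) : σ = 1 := by
  have h1 : orderOf σ ∣ q := orderOf_dvd_of_pow_eq_one hσ
  rcases (Nat.dvd_prime hq).1 h1 with h2 | h2
  · exact orderOf_eq_one_iff.1 h2
  · exfalso
    haveI := Fintype.ofFinite α
    classical
    have h3 : orderOf σ ∣ Nat.card (Equiv.Perm α) := orderOf_dvd_natCard σ
    rw [h2, Nat.card_perm] at h3
    have h4 := (hq.dvd_factorial).1 h3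
    omega

theorem dih_factor (hq : q.Prime) (hq5 : 5 ≤ q) (hch : centralizer (pCore 2 X : Set X) ≤ pCore 2 X)
    (hπ : Function.Surjective π) (hk : π.ker = pCore 2 X) (hS : SylIn 2 S ⊤) :
    (Z1 2 S).Normal ∨ (JJ S).Normal := by
  haveI : Fact (Nat.Prime 2) := ⟨Nat.prime_two⟩
  have hq2 : q ≠ 2 := by omega
  have hTS : pCore 2 X ≤ S := pCore_le_sylIn hS
  haveI hTn : (pCore 2 X).Normal := pCore_normal 2 X
  by_contra hcon
  push Not at hcon
  obtain ⟨h1, h2⟩ := hcon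
  -- the module
  have hZ1T : (Z1 2 (pCore 2 X)).Normal := by
    rw [← normalizer_eq_top_iff, eq_top_iff]
    apply le_normalizer_Z1
    rw [(normalizer_eq_top_iff).2 hTn]
  have hZT : Z1 2 S ≤ Z1 2 (pCore 2 X) := by
    have h3 : Z1 2 S ≤ centralizer (pCore 2 X : Set X) := (Z1_le_centralizer S).trans (centralizer_anti hTS)
    exact le_Z1 (h3.trans hch) h3 (Z1_el S)
  set V := normalClosure (Z1 2 S : Set X) with hV
  have hVZ : V ≤ Z1 2 (pCore 2 X) := normalClosure_le_normal hZT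
  have hZV : Z1 2 S ≤ V := le_normalClosure
  have hVT : V ≤ pCore 2 X := hVZ.trans (Z1_le _)
  have hTV : pCore 2 X ≤ centralizer (V : Set X) :=
    (le_centralizer_Z1 _).trans (centralizer_anti hVZ)
  have hVsq : ∀ v ∈ V, v ^ 2 = 1 := fun v hv => (Z1_el (p := 2) (pCore 2 X)).2 v (hVZ hv)
  have hVc : V ≤ centralizer (V : Set X) := hVT.trans hTV
  have hC : centralizer (V : Set X) ≤ pCore 2 X := by
    by_contra hC
    haveI : (centralizer (V : Set X)).Normal := inferInstance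
    have h3 := dih_sup π hq hq2 hπ hk hS hTS hTV hC
    have h4 : centralizer (V : Set X) ⊔ S ≤ centralizer (Z1 2 S : Set X) :=
      sup_le (centralizer_anti hZV) (le_centralizer_Z1 S)
    apply h1
    rw [← normalizer_eq_top_iff, eq_top_iff, ← h3]
    exact h4.trans (H47.centralizer_le_normalizer _)
  have hJ : ¬ JJ S ≤ pCore 2 X := by
    intro hJ
    apply h2
    rw [← JJ_eq_of_le hTS hJ]
    exact JJ_normal hTn
  rw [JJ_le_iff] at hJ
  push Not at hJ
  obtain ⟨A, hA, hAT⟩ := hJ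
  obtain ⟨a, ha, haT⟩ := SetLike.not_le_iff_exists.1 hAT
  -- index two
  have hmul : ∀ x ∈ S, x ∉ pCore 2 X → ∀ y ∈ S, y ∉ pCore 2 X → y * x ∈ pCore 2 X := by
    intro x hx hxT y hy hyT
    by_contra hxy
    obtain ⟨i, hi⟩ := dih_inv π hq hq2 hk hS.isPGroup hx hxT
    obtain ⟨j, hj⟩ := dih_inv π hq hq2 hk hS.isPGroup hy hyT
    obtain ⟨l, hl⟩ := dih_inv π hq hq2 hk hS.isPGroup (mul_mem hy hx) hxy
    rw [map_mul, hi, hj, DihedralGroup.sr_mul_sr] at hl
    cases hl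
  have hA2 : Nat.card A ≤ 2 * Nat.card (A ⊓ pCore 2 X : Subgroup X) := by
    have h3 : ((pCore 2 X).subgroupOf A).index = 2 := by
      rw [Subgroup.index_eq_two_iff]
      refine ⟨⟨a, ha⟩, fun b => ?_⟩
      simp only [mem_subgroupOf]
      by_cases hb : (b : X) ∈ pCore 2 X
      · right
        refine ⟨hb, fun h4 => haT ?_⟩
        have h5 := mul_mem (inv_mem hb) h4
        rwa [Subgroup.coe_mul, inv_mul_cancel_left] at h5
      · left
        exact ⟨hmul a (hA.1 ha) haT b (hA.1 b.2) hb, hb⟩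
    have h4 := Subgroup.card_mul_index ((pCore 2 X).subgroupOf A)
    have h5 : Nat.card ((pCore 2 X).subgroupOf A) = Nat.card (A ⊓ pCore 2 X : Subgroup X) := by
      rw [← card_map_subtype, subgroupOf_map_subtype, inf_comm]
    rw [h3, h5] at h4
    omega
  have hA₀ : A ⊓ pCore 2 X ≤ centralizer ((A ⊓ pCore 2 X : Subgroup X) : Set X) :=
    inf_le_left.trans (hA.2.1.trans (centralizer_anti inf_le_left))
  have hVA : V ≤ centralizer ((A ⊓ pCore 2 X : Subgroup X) : Set X) := by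
    rw [le_centralizer_iff]
    exact inf_le_right.trans hTV
  have hVA2 : Nat.card (V ⊔ (A ⊓ pCore 2 X) : Subgroup X) ≤ Nat.card A := by
    apply hA.2.2
    · exact sup_le (hVT.trans hTS) (inf_le_left.trans hA.1)
    · rw [le_centralizer_iff]
      apply sup_le
      · rw [le_centralizer_iff]
        exact sup_le hVc (inf_le_right.trans hTV)
      · rw [le_centralizer_iff]
        exact sup_le hVA hA₀
  have hVcard : Nat.card V ≤ 2 * Nat.card (V ⊓ centralizer ({a} : Set X) : Subgroup X) := by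
    have h3 := card_sup_mul_card_inf (hVA.trans (H47.centralizer_le_normalizer _))
    have h4 : Nat.card (V ⊓ (A ⊓ pCore 2 X) : Subgroup X) ≤ Nat.card (V ⊓ centralizer ({a} : Set X) : Subgroup X) := by
      apply Subgroup.card_le_of_le
      refine inf_le_inf_left _ ?_
      intro x hx
      have hx1 : x ∈ A := hx.1
      rw [mem_centralizer_singleton_iff]
      exact (mem_centralizer_iff.1 (hA.2.1 hx1) a ha).symm
    have hpos : 0 < Nat.card (A ⊓ pCore 2 X : Subgroup X) := Nat.card_pos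
    have h5 : Nat.card V * Nat.card (A ⊓ pCore 2 X : Subgroup X) ≤
        (2 * Nat.card (V ⊓ centralizer ({a} : Set X) : Subgroup X)) * Nat.card (A ⊓ pCore 2 X : Subgroup X) := by
      rw [← h3]
      calc _ ≤ (2 * Nat.card (A ⊓ pCore 2 X : Subgroup X)) * Nat.card (V ⊓ centralizer ({a} : Set X) : Subgroup X) :=
            Nat.mul_le_mul (hVA2.trans hA2) h4
        _ = _ := by ring
    exact Nat.le_of_mul_le_mul_right h5 hpos
  obtain ⟨i, hi⟩ := dih_inv π hq hq2 hk hS.isPGroup (hA.1 ha) haT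
  obtain ⟨g, hg⟩ := hπ (DihedralGroup.r 1)
  have hab : π (a * (g * a * g⁻¹)) = DihedralGroup.r (-2) := by
    rw [map_mul, map_mul, map_mul, map_inv, hi, hg]
    simp only [DihedralGroup.inv_r, DihedralGroup.r_mul_sr, DihedralGroup.sr_mul_r, DihedralGroup.sr_mul_sr]
    congr 1
    ring
  obtain ⟨m, hm⟩ := exists_pow_coprime (p := 2) (a * (g * a * g⁻¹))
  set d := (a * (g * a * g⁻¹)) ^ (2 ^ m) with hd
  have hVn : V.Normal := inferInstance
  have hrel : (centralizer ({a} : Set X)).relIndex V ≤ 2 := by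
    have h3 : Nat.card (V ⊓ centralizer ({a} : Set X) : Subgroup X) * (centralizer ({a} : Set X)).relIndex V =
        Nat.card V := by
      have := relIndex_mul_relIndex ⊥ (V ⊓ centralizer ({a} : Set X)) V bot_le inf_le_left
      rw [inf_relIndex_left] at this
      simpa using this
    have hpos : 0 < Nat.card (V ⊓ centralizer ({a} : Set X) : Subgroup X) := Nat.card_pos
    have h4 : Nat.card (V ⊓ centralizer ({a} : Set X) : Subgroup X) * (centralizer ({a} : Set X)).relIndex V ≤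
        Nat.card (V ⊓ centralizer ({a} : Set X) : Subgroup X) * 2 := by
      rw [h3]; omega
    exact Nat.le_of_mul_le_mul_left h4 hpos
  have hrel' : (centralizer ({g * a * g⁻¹} : Set X)).relIndex V ≤ 2 := by
    have e1 : V.map (MulAut.conj g).toMonoidHom = V :=
      norm_map_conj (by rw [(normalizer_eq_top_iff).2 hVn]; trivial)
    have e2 : centralizer ({g * a * g⁻¹} : Set X) = (centralizer ({a} : Set X)).map (MulAut.conj g).toMonoidHom := by
      ext x
      constructor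
      · intro hx
        refine ⟨g⁻¹ * x * g, ?_, by simp [mul_assoc]⟩
        rw [SetLike.mem_coe, mem_centralizer_singleton_iff] at *
        have h3 : g * a * g⁻¹ * x = x * (g * a * g⁻¹) := hx.symm
        calc g⁻¹ * x * g * a = g⁻¹ * (x * (g * a * g⁻¹)) * g := by group
          _ = a * (g⁻¹ * x * g) := by rw [← h3]; group
      · rintro ⟨y, hy, rfl⟩
        rw [SetLike.mem_coe, mem_centralizer_singleton_iff] at *
        change g * y * g⁻¹ * (g * a * g⁻¹) = g * a * g⁻¹ * (g * y * g⁻¹)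
        calc g * y * g⁻¹ * (g * a * g⁻¹) = g * (y * a) * g⁻¹ := by group
          _ = _ := by rw [hy]; group
    rw [e2]
    conv_lhs => rw [← e1]
    rw [relIndex_map_map_of_injective _ _ (MulAut.conj g).injective]
    exact hrel
  have hdC : centralizer ({a} : Set X) ⊓ centralizer ({g * a * g⁻¹} : Set X) ≤ centralizer ({d} : Set X) := by
    intro x hx
    have h3 : Commute x a := mem_centralizer_singleton_iff.1 hx.1
    have h4 : Commute x (g * a * g⁻¹) := mem_centralizer_singleton_iff.1 hx.2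
    rw [mem_centralizer_singleton_iff]
    exact ((h3.mul_right h4).pow_right (2 ^ m)).eq
  have hrel4 : (centralizer ({d} : Set X)).relIndex V ≤ 4 := by
    refine (relIndex_le_of_le_left hdC ?_).trans ((relIndex_inf_le).trans (Nat.mul_le_mul hrel hrel'))
    rw [relIndex]
    exact Subgroup.index_ne_zero_of_finite
  have hπd : π d = DihedralGroup.r (((2 ^ m : ℕ) : ZMod q) * (-2)) := by
    rw [hd, map_pow, hab, r_pow]
  have hdq : d ^ q ∈ pCore 2 X := by
    rw [← hk, MonoidHom.mem_ker, map_pow, hπd, r_pow]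
    simp
  have hdT : d ∉ pCore 2 X := by
    intro h3
    rw [← hk, MonoidHom.mem_ker, hπd, DihedralGroup.one_def] at h3
    injection h3 with h4
    have h5 := two_pow_ne hq hq2 h4
    rw [neg_eq_zero] at h5
    have h6 := (ZMod.natCast_eq_zero_iff 2 q).1 (by exact_mod_cast h5)
    exact hq2 ((Nat.prime_dvd_prime_iff_eq hq Nat.prime_two).1 h6)
  apply hdT
  apply hC
  rw [mem_centralizer_iff]
  intro v hv
  -- pigeonhole
  have hx : ∀ n : ℕ, d ^ n * v * (d ^ n)⁻¹ ∈ V := fun n => hVn.conj_mem v hv _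
  have key : ∀ i j : ℕ, i < j → j < q →
      (d ^ i * v * (d ^ i)⁻¹)⁻¹ * (d ^ j * v * (d ^ j)⁻¹) ∈ centralizer ({d} : Set X) → v * d = d * v := by
    intro i j hij hjq h3
    obtain ⟨k, rfl⟩ : ∃ k, j = i + k := ⟨j - i, by omega⟩
    rw [mem_centralizer_singleton_iff] at h3
    set u := v⁻¹ * (d ^ k * v * (d ^ k)⁻¹) with hu
    have e1 : (d ^ i * v * (d ^ i)⁻¹)⁻¹ * (d ^ (i + k) * v * (d ^ (i + k))⁻¹) = d ^ i * u * (d ^ i)⁻¹ := by
      rw [hu, pow_add]; group
    rw [e1] at h3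
    have hdu : d * u = u * d := by
      have c1 : Commute d (d ^ i) := (Commute.refl d).pow_right i
      have h4 : (d ^ i)⁻¹ * (d * (d ^ i * u * (d ^ i)⁻¹)) * d ^ i = d * u := by
        rw [← mul_assoc d, ← mul_assoc d, c1.eq]; group
      have h5 : (d ^ i)⁻¹ * (d ^ i * u * (d ^ i)⁻¹ * d) * d ^ i = u * d := by
        rw [mul_assoc, mul_assoc _ d, c1.eq]; group
      rw [← h4, ← h3, h5]
    have huV : u ∈ V := mul_mem (inv_mem hv) (hx k)
    have hcd : Commute (d ^ k) u := (show Commute d u from hdu).pow_left k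
    have hind : ∀ n : ℕ, (d ^ k) ^ n * v * ((d ^ k) ^ n)⁻¹ = v * u ^ n := by
      intro n
      induction n with
      | zero => simp
      | succ n ih =>
        have h4 : (d ^ k) ^ (n + 1) * v * ((d ^ k) ^ (n + 1))⁻¹ = d ^ k * ((d ^ k) ^ n * v * ((d ^ k) ^ n)⁻¹) * (d ^ k)⁻¹ := by
          rw [pow_succ' (d ^ k) n]; group
        rw [h4, ih]
        have h5 : d ^ k * (v * u ^ n) * (d ^ k)⁻¹ = (d ^ k * v * (d ^ k)⁻¹) * (d ^ k * u ^ n * (d ^ k)⁻¹) := by group
        have h6 : d ^ k * u ^ n * (d ^ k)⁻¹ = u ^ n := by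
          rw [(hcd.pow_right n).eq, mul_inv_cancel_right]
        have h7 : d ^ k * v * (d ^ k)⁻¹ = v * u := by rw [hu]; group
        rw [h5, h6, h7, pow_succ', mul_assoc]
    have h8 := hind (orderOf d)
    rw [← pow_mul, mul_comm, pow_mul, pow_orderOf_eq_one, one_pow] at h8
    have h9 : u ^ orderOf d = 1 := by
      rw [one_mul, inv_one, mul_one] at h8
      exact left_eq_mul.1 h8
    have hu1 : u = 1 := by
      have h10 := orderOf_dvd_of_pow_eq_one h9
      have h11 := orderOf_dvd_of_pow_eq_one (hVsq u huV)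
      exact orderOf_eq_one_iff.1 (Nat.eq_one_of_dvd_coprimes hm h10 h11)
    have c2 : Commute (d ^ k) v := by
      have h10 : d ^ k * v * (d ^ k)⁻¹ = v := by
        have : d ^ k * v * (d ^ k)⁻¹ = v * u := by rw [hu]; group
        rw [this, hu1, mul_one]
      exact mul_inv_eq_iff_eq_mul.1 h10
    have c3 : Commute (d ^ q) v := (mem_centralizer_iff.1 (hTV hdq) v hv).symm
    have hcop : IsCoprime (k : ℤ) (q : ℤ) := by
      rw [Nat.isCoprime_iff_coprime]
      exact (Nat.coprime_of_lt_prime (by omega) (by omega) hq).symm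
    obtain ⟨x, y, hxy⟩ := hcop
    have h10 : d = (d ^ k) ^ x * (d ^ q) ^ y := by
      rw [← zpow_natCast, ← zpow_natCast, ← zpow_mul, ← zpow_mul, ← zpow_add]
      have : (k : ℤ) * x + q * y = 1 := by linear_combination hxy
      rw [this, zpow_one]
    have c4 : Commute ((d ^ k) ^ x * (d ^ q) ^ y) v := (c2.zpow_left x).mul_left (c3.zpow_left y)
    rw [← h10] at c4
    exact c4.symm
  have hinj : ¬ Function.Injective (fun i : Fin q =>
      (QuotientGroup.mk (⟨d ^ (i : ℕ) * v * (d ^ (i : ℕ))⁻¹, hx i⟩ : V) : V ⧸ (centralizer ({d} : Set X)).subgroupOf V)) := by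
    intro h3
    have h4 := Nat.card_le_card_of_injective _ h3
    rw [Nat.card_fin] at h4
    have h5 : Nat.card (V ⧸ (centralizer ({d} : Set X)).subgroupOf V) = (centralizer ({d} : Set X)).relIndex V := rfl
    omega
  rw [Function.not_injective_iff] at hinj
  obtain ⟨i, j, hij, hne⟩ := hinj
  have hij' := QuotientGroup.eq.1 hij
  have hji' := QuotientGroup.eq.1 hij.symm
  rw [mem_subgroupOf] at hij' hji'
  rcases lt_or_gt_of_ne hne with h3 | h3
  · exact key i j h3 j.2 hij'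
  · exact key j i h3 i.2 hji'

end dih

theorem sl22_dec2 : ∀ a b : Matrix.SpecialLinearGroup (Fin 2) (ZMod 2), a ^ 3 = 1 → a ≠ 1 → b ^ 3 = 1 → b ≠ 1 →
    b = a ∨ b = a ^ 2 := by decide +kernel

theorem sl22_dec : (∀ δ : Matrix.SpecialLinearGroup (Fin 2) (ZMod 2), δ ^ 3 = 1 → δ ≠ 1 →
    ∀ u : Fin 2 → ZMod 2, δ.1.mulVec u = u → u = 0) ∧
    (∃ δ : Matrix.SpecialLinearGroup (Fin 2) (ZMod 2), δ ^ 3 = 1 ∧ δ ≠ 1) := by
  constructor
  · decide +kernel
  · refine ⟨⟨!![0, 1; 1, 1], by decide⟩, by decide, fun h => ?_⟩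
    have h2 := congrArg (fun m : Matrix.SpecialLinearGroup (Fin 2) (ZMod 2) => m.1 0 0) h
    exact absurd h2 (by decide)

universe u
section
variable {X : Type u} [Group X] [Finite X]

theorem qd_split2 {Z S B : Subgroup X} (hv : Vtx 2 2 (⊤ : Subgroup X))
    (h : Case1 2 2 (⊤ : Subgroup X) Z) (hker : KerP 2 ⊤ Z)
    (hTcm : ∀ x ∈ pCore 2 X, ∀ y ∈ pCore 2 X, x * y = y * x) (hTp : ∀ x ∈ pCore 2 X, x ^ 2 = 1)
    (hS : SylIn 2 S ⊤)
    (hBT : B ⊓ pCore 2 X = ⊥) (hBS : B ⊔ pCore 2 X = S)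
    (π : X →* DihedralGroup 3) (hπ : Function.Surjective π) (hπk : π.ker = pCore 2 X)
    (hC : ∀ x ∈ pCore 2 X, ∀ y ∈ pCore 2 X, x ∉ centralizer (S : Set X) → y ∉ centralizer (S : Set X) →
      x * y ∈ centralizer (S : Set X)) :
    ∃ G₀ E : Subgroup X, G₀ ⊔ E = ⊤ ∧ G₀ ⊓ E = ⊥ ∧ (∀ e ∈ E, ∀ x : X, e * x = x * e) ∧ (∀ e ∈ E, e ^ 2 = 1) ∧
      Nat.card (pCore 2 X) = 4 * Nat.card E ∧ ¬ pCore 2 X ≤ centralizer (S : Set X) ∧
      Nonempty (↥G₀ ≃* ↥(Cfsg.qdOver (ZMod 2))) := by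
  haveI : Fact (Nat.Prime 2) := ⟨Nat.prime_two⟩
  have hpp : (2 : ℕ).Prime := Nat.prime_two
  have hT : pCoreOf 2 (⊤ : Subgroup X) = pCore 2 X := pCoreOf_top 2
  have hZn : Z.Normal := normal_of_top_le h.norm
  haveI hTn : (pCore 2 X).Normal := pCore_normal 2 X
  have hTS : pCore 2 X ≤ S := pCore_le_sylIn hS
  have hZT : Z ≤ pCore 2 X := h.le.trans hT.le
  have hZZ : ⁅Z, Z⁆ ≤ cz Z ⊥ ⊤ := by
    have h1 : ⁅Z, Z⁆ = ⊥ := by
      rw [commutator_eq_bot_iff_le_centralizer]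
      exact h.cent.trans (centralizer_le h.le)
    rw [h1]; exact bot_le
  obtain ⟨σ, f, hN⟩ := h.nat.nm hv le_top bot_le h.norm (fun x _ => mem_normalizer_bot x) hZZ (ZMod.card 2)
  let σ' : X →* Matrix.SpecialLinearGroup (Fin 2) (ZMod 2) := σ.comp (Subgroup.topEquiv (G := X)).symm.toMonoidHom
  have hσ' : ∀ x : X, σ' x = σ ⟨x, mem_top x⟩ := fun x => rfl
  have hs : Function.Surjective σ' := by
    intro m
    obtain ⟨x, rfl⟩ := hN.1 m
    exact ⟨x, rfl⟩
  have hk : σ'.ker = pCore 2 X := by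
    ext x
    rw [MonoidHom.mem_ker, hσ', hN.ker_iff]
    constructor
    · intro h1
      have := hker x (mem_top x) h1
      rwa [pCoreOf_top] at this
    · intro h1 v hv
      have h2 : ⁅v, x⁆ = 1 := by
        rw [commutatorElement_eq_one_iff_mul_comm]
        exact (mem_centralizer_iff.1 (h.cent hv) x (by rw [pCoreOf_top]; exact h1)).symm
      change ⁅v, x⁆ ∈ cz Z ⊥ ⊤
      rw [h2]; exact one_mem _
  have hact : ∀ (g : X) (v w : Z), (w : X) = g * v * g⁻¹ → f w = (σ' g).1.mulVec (f v) := fun g v w hw =>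
    hN.act ⟨g, mem_top g⟩ v w hw
  -- the element of order three
  obtain ⟨d, hd3, hdδ, hd1, hdc⟩ : ∃ d : X, d ^ 3 = 1 ∧ (σ' d) ^ 3 = 1 ∧ σ' d ≠ 1 ∧ (orderOf d).Coprime 2 := by
    obtain ⟨δ, hδ3, hδ1⟩ := sl22_dec.2
    obtain ⟨y, hy⟩ := hs δ
    obtain ⟨m, hm⟩ := exists_pow_coprime (p := 2) y
    have hδ : (σ' (y ^ 2 ^ m)) ^ 3 = 1 := by rw [map_pow, hy, ← pow_mul, mul_comm, pow_mul, hδ3, one_pow]
    refine ⟨y ^ (2 ^ m), ?_, hδ, ?_, hm⟩
    · have h1 : (y ^ 2 ^ m) ^ 3 ∈ pCore 2 X := by rw [← hk, MonoidHom.mem_ker, map_pow, hδ]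
      have h2 := orderOf_dvd_of_pow_eq_one (hTp _ h1)
      have h3 : orderOf ((y ^ 2 ^ m) ^ 3) ∣ orderOf (y ^ 2 ^ m) := orderOf_pow_dvd 3
      exact orderOf_eq_one_iff.1 (Nat.eq_one_of_dvd_coprimes hm h3 h2)
    · intro h1
      rw [map_pow, hy] at h1
      apply hδ1
      have h2 := orderOf_dvd_of_pow_eq_one h1
      have h3 := orderOf_dvd_of_pow_eq_one hδ3
      have h4 : Nat.Coprime (2 ^ m) 3 := Nat.Coprime.pow_left m (by norm_num)
      exact orderOf_eq_one_iff.1 (Nat.eq_one_of_dvd_coprimes h4 h2 h3)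
  have hdT : d ∉ pCore 2 X := by
    intro h1
    rw [← hk] at h1
    exact hd1 h1
  have hdp : d ∈ pRes 2 (⊤ : Subgroup X) := mem_pRes_of_coprime (mem_top d) hdc
  -- the automorphism
  have hcT : ∀ x ∈ pCore 2 X, d * x * d⁻¹ ∈ pCore 2 X := fun x hx => hTn.conj_mem x hx d
  have hc3 : ∀ x : X, d * (d * (d * x * d⁻¹) * d⁻¹) * d⁻¹ = x := by
    intro x
    have h1 : d * (d * (d * x * d⁻¹) * d⁻¹) * d⁻¹ = d ^ 3 * x * (d ^ 3)⁻¹ := by
      rw [pow_succ, pow_two]; group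
    rw [h1, hd3]; group
  have hconj : ∀ g : X, (∀ x ∈ pCore 2 X, g * (d * x * d⁻¹) * g⁻¹ = d * (g * x * g⁻¹) * d⁻¹) ∨
      (∀ x ∈ pCore 2 X, g * (d * x * d⁻¹) * g⁻¹ = d * (d * (g * x * g⁻¹) * d⁻¹) * d⁻¹) := by
    intro g
    have h1 : σ' (g * d * g⁻¹) = σ' d ∨ σ' (g * d * g⁻¹) = (σ' d) ^ 2 := by
      apply sl22_dec2 _ _ hdδ hd1
      · rw [map_mul, map_mul, map_inv, conj_pow, hdδ]; group
      · rw [map_mul, map_mul, map_inv]
        intro h2
        apply hd1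
        have h3 := mul_inv_eq_one.1 h2
        exact mul_eq_left.1 h3
    have key : ∀ e : X, σ' (g * d * g⁻¹) = σ' e → ∀ x ∈ pCore 2 X, g * (d * x * d⁻¹) * g⁻¹ = e * (g * x * g⁻¹) * e⁻¹ := by
      intro e he x hx
      have h2 : e⁻¹ * (g * d * g⁻¹) ∈ pCore 2 X := by
        rw [← hk, MonoidHom.mem_ker, map_mul, map_inv, he, inv_mul_cancel]
      have h3 := hTcm _ h2 _ (hTn.conj_mem x hx g)
      have h4 : g * (d * x * d⁻¹) * g⁻¹ = e * ((e⁻¹ * (g * d * g⁻¹)) * (g * x * g⁻¹) * (e⁻¹ * (g * d * g⁻¹))⁻¹) * e⁻¹ := by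
        group
      rw [h4, h3]; group
    rcases h1 with h1 | h1
    · left; exact key d h1
    · right
      intro x hx
      rw [key (d ^ 2) (by rw [h1, map_pow]) x hx, pow_two]; group
  let V : Subgroup X :=
    { carrier := {x | x ∈ pCore 2 X ∧ x * (d * x * d⁻¹) * (d * (d * x * d⁻¹) * d⁻¹) = 1}
      one_mem' := ⟨one_mem _, by group⟩
      mul_mem' := by
        rintro a b ⟨ha, ha2⟩ ⟨hb, hb2⟩
        refine ⟨mul_mem ha hb, ?_⟩
        have e1 := hTcm _ hb _ (hcT a ha)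
        have e2 := hTcm _ (mul_mem hb (hcT b hb)) _ (hcT _ (hcT a ha))
        calc a * b * (d * (a * b) * d⁻¹) * (d * (d * (a * b) * d⁻¹) * d⁻¹)
            = a * (b * (d * a * d⁻¹)) * (d * b * d⁻¹) * (d * (d * a * d⁻¹) * d⁻¹) * (d * (d * b * d⁻¹) * d⁻¹) := by group
          _ = a * (d * a * d⁻¹) * ((b * (d * b * d⁻¹)) * (d * (d * a * d⁻¹) * d⁻¹)) * (d * (d * b * d⁻¹) * d⁻¹) := by
              rw [e1]; group
          _ = (a * (d * a * d⁻¹) * (d * (d * a * d⁻¹) * d⁻¹)) * (b * (d * b * d⁻¹) * (d * (d * b * d⁻¹) * d⁻¹)) := by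
              rw [e2]; group
          _ = 1 := by rw [ha2, hb2, one_mul]
      inv_mem' := by
        rintro a ⟨ha, ha2⟩
        refine ⟨inv_mem ha, ?_⟩
        have e1 := hTcm _ ha _ (hcT a ha)
        have e2 := hTcm _ (mul_mem ha (hcT a ha)) _ (hcT _ (hcT a ha))
        have e3 : a⁻¹ * (d * a⁻¹ * d⁻¹) * (d * (d * a⁻¹ * d⁻¹) * d⁻¹) =
            ((d * (d * a * d⁻¹) * d⁻¹) * ((d * a * d⁻¹) * a))⁻¹ := by group
        rw [e3, ← e1, ← e2, ha2, inv_one] }
  let E : Subgroup X :=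
    { carrier := {x | x ∈ pCore 2 X ∧ d * x * d⁻¹ = x}
      one_mem' := ⟨one_mem _, by group⟩
      mul_mem' := by
        rintro a b ⟨ha, ha2⟩ ⟨hb, hb2⟩
        refine ⟨mul_mem ha hb, ?_⟩
        have : d * (a * b) * d⁻¹ = (d * a * d⁻¹) * (d * b * d⁻¹) := by group
        rw [this, ha2, hb2]
      inv_mem' := by
        rintro a ⟨ha, ha2⟩
        refine ⟨inv_mem ha, ?_⟩
        have : d * a⁻¹ * d⁻¹ = (d * a * d⁻¹)⁻¹ := by group
        rw [this, ha2] }
  have hVmem : ∀ x, x ∈ V ↔ x ∈ pCore 2 X ∧ x * (d * x * d⁻¹) * (d * (d * x * d⁻¹) * d⁻¹) = 1 := fun x => Iff.rfl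
  have hEmem : ∀ x, x ∈ E ↔ x ∈ pCore 2 X ∧ d * x * d⁻¹ = x := fun x => Iff.rfl
  haveI hVn : V.Normal := by
    refine ⟨fun x hx g => ?_⟩
    rw [hVmem] at hx
    refine ⟨hTn.conj_mem x hx.1 g, ?_⟩
    have e2 := hTcm _ (hcT _ (hTn.conj_mem x hx.1 g)) _ (hcT _ (hcT _ (hTn.conj_mem x hx.1 g)))
    have e0 : g * (x * (d * x * d⁻¹) * (d * (d * x * d⁻¹) * d⁻¹)) * g⁻¹ = 1 := by rw [hx.2]; group
    rcases hconj g with h1 | h1
    · rw [← h1 x hx.1, ← h1 _ (hcT x hx.1)]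
      rw [← e0]; group
    · have e1 : g * (d * (d * x * d⁻¹) * d⁻¹) * g⁻¹ = d * (g * x * g⁻¹) * d⁻¹ := by
        rw [h1 _ (hcT x hx.1), h1 x hx.1]
        exact hc3 _
      have e3 := h1 x hx.1
      rw [mul_assoc, e2, ← e3, ← e1, ← e0]; group
  haveI hEn : E.Normal := by
    refine ⟨fun x hx g => ?_⟩
    rw [hEmem] at hx
    refine ⟨hTn.conj_mem x hx.1 g, ?_⟩
    rcases hconj g with h1 | h1
    · rw [← h1 x hx.1, hx.2]
    · have e1 := h1 x hx.1
      rw [hx.2] at e1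
      conv_lhs => rw [e1]
      rw [hc3]
  have hVT : V ≤ pCore 2 X := fun x hx => hx.1
  have hET : E ≤ pCore 2 X := fun x hx => hx.1
  have hVE : ∀ x, x ∈ V → x ∈ E → x = 1 := by
    intro x h1 h2
    rw [hVmem] at h1
    rw [hEmem] at h2
    have h3 := h1.2
    rw [h2.2, h2.2] at h3
    have h4 := hTp x h1.1
    rw [pow_two] at h4
    rwa [h4, one_mul] at h3
  have hsplit : ∀ x ∈ pCore 2 X, ∃ v ∈ V, ∃ e ∈ E, x = v * e := by
    intro x hx
    have h0 := hTp x hx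
    have h1 := hTp _ (hcT x hx)
    have h2 := hTp _ (hcT _ (hcT x hx))
    have c1 := hTcm _ hx _ (hcT x hx)
    have c2 := hTcm _ hx _ (hcT _ (hcT x hx))
    have c3 := hTcm _ (hcT x hx) _ (hcT _ (hcT x hx))
    have h3 := hc3 x
    set y := d * x * d⁻¹ with hy
    set z := d * y * d⁻¹ with hz
    have hyT : y ∈ pCore 2 X := hcT x hx
    have hzT : z ∈ pCore 2 X := hcT y hyT
    rw [pow_two] at h0 h1 h2
    refine ⟨y * z, ⟨mul_mem hyT hzT, ?_⟩, x * y * z, ⟨mul_mem (mul_mem hx hyT) hzT, ?_⟩, ?_⟩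
    · have e1 : d * (y * z) * d⁻¹ = z * x := by
        calc d * (y * z) * d⁻¹ = (d * y * d⁻¹) * (d * z * d⁻¹) := by group
          _ = z * x := by rw [h3]
      have e2 : d * (z * x) * d⁻¹ = x * y := by
        calc d * (z * x) * d⁻¹ = (d * z * d⁻¹) * (d * x * d⁻¹) := by group
          _ = x * y := by rw [h3]
      rw [e1, e2]
      calc y * z * (z * x) * (x * y) = y * (z * z) * (x * x) * y := by group
        _ = 1 := by rw [h2, h0, mul_one, mul_one, h1]
    · have e1 : d * (x * y * z) * d⁻¹ = y * z * x := by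
        calc d * (x * y * z) * d⁻¹ = (d * x * d⁻¹) * (d * y * d⁻¹) * (d * z * d⁻¹) := by group
          _ = y * z * x := by rw [h3]
      rw [e1, mul_assoc, ← c2, ← mul_assoc, ← c1]
    · calc x = x * (y * y) * (z * z) := by rw [h1, h2, mul_one, mul_one]
        _ = (x * y) * (y * z) * z := by group
        _ = (x * y) * (z * y) * z := by rw [c3]
        _ = y * z * (x * y * z) := by
          have := hTcm _ (mul_mem hx hyT) _ (mul_mem hzT hyT)
          rw [this, c3.symm]; group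
  -- V ≤ Z
  have hVZ : V ≤ Z := by
    intro x hx
    have h1 : ⁅x, d⁆ ∈ Z := h.res (commutator_mem_commutator (by rw [hT]; exact hx.1) hdp)
    rw [hVmem] at hx
    have h0 := hTp _ (hcT x hx.1)
    rw [pow_two] at h0
    have h3 : d * (d * x * d⁻¹) * d⁻¹ = ⁅x, d⁆⁻¹ := by
      have h4 : ⁅x, d⁆ = x * (d * x * d⁻¹)⁻¹ := by rw [commutatorElement_def]; group
      have h5 : (d * x * d⁻¹)⁻¹ = d * x * d⁻¹ := inv_eq_of_mul_eq_one_right h0
      rw [h4, h5]
      exact eq_inv_of_mul_eq_one_right hx.2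
    have h4 : d * (d * x * d⁻¹) * d⁻¹ ∈ Z := by rw [h3]; exact inv_mem h1
    have h5 := hZn.conj_mem _ h4 d
    rwa [hc3] at h5
  have hZE : ∀ x, x ∈ Z → x ∈ E → x ∈ cz Z ⊥ ⊤ := by
    intro x hxZ hxE
    rw [← hN.2.2.2.1 ⟨x, hxZ⟩]
    have h1 := hact d ⟨x, hxZ⟩ ⟨x, hxZ⟩ hxE.2.symm
    exact sl22_dec.1 _ hdδ hd1 _ h1.symm
  have hZsplit : ∀ x ∈ Z, ∃ v ∈ V, ∃ e ∈ cz Z ⊥ (⊤ : Subgroup X), x = v * e := by
    intro x hx
    obtain ⟨v, hv, e, he, rfl⟩ := hsplit x (hZT hx)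
    refine ⟨v, hv, e, hZE e ?_ he, rfl⟩
    have : e = v⁻¹ * (v * e) := by group
    rw [this]
    exact mul_mem (inv_mem (hVZ hv)) hx
  have hDE : ∀ x ∈ cz Z ⊥ (⊤ : Subgroup X), x ∈ E := by
    intro x hx
    refine ⟨hZT hx.1, ?_⟩
    have h1 : ⁅x, d⁆ = 1 := mem_bot.1 (hx.2.2 d (mem_top d))
    have h2 := commutatorElement_eq_one_iff_mul_comm.1 h1
    rw [← h2]; group
  let ψ : ↥V → (Fin 2 → ZMod 2) := fun v => f ⟨v, hVZ v.2⟩
  have hψadd : ∀ a b, ψ (a * b) = ψ a + ψ b := fun a b => hN.2.2.1 ⟨a, hVZ a.2⟩ ⟨b, hVZ b.2⟩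
  have hψ0 : ∀ a, ψ a = 0 → a = 1 := by
    intro a ha
    have h1 := (hN.2.2.2.1 ⟨a, hVZ a.2⟩).1 ha
    exact Subtype.ext (hVE a a.2 (hDE a h1))
  have hψ1 : ψ 1 = 0 := by
    have := hψadd 1 1
    rw [mul_one] at this
    exact left_eq_add.1 this
  have hψinj : Function.Injective ψ := by
    intro a b hab
    have h1 : ψ (a * b⁻¹) = 0 := by
      have h2 := hψadd b b⁻¹
      rw [mul_inv_cancel, hψ1] at h2
      rw [hψadd, hab, ← h2]
    exact mul_inv_eq_one.1 (hψ0 _ h1)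
  have hψsurj : Function.Surjective ψ := by
    intro u
    obtain ⟨z, rfl⟩ := hN.2.1 u
    obtain ⟨v, hv, e, he, hz⟩ := hZsplit z z.2
    refine ⟨⟨v, hv⟩, ?_⟩
    have h1 : z = ⟨v, hVZ hv⟩ * ⟨e, cz_le he⟩ := Subtype.ext hz
    rw [h1, hN.2.2.1, (hN.2.2.2.1 ⟨e, cz_le he⟩).2 he, add_zero]
  have hVcard : Nat.card V = 4 := by
    rw [Nat.card_congr (Equiv.ofBijective ψ ⟨hψinj, hψsurj⟩), Nat.card_eq_fintype_card]
    decide
  have hVS : ¬ V ≤ centralizer (S : Set X) := by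
    intro hVS
    have h1 : V ≤ centralizer (centralizer (V : Set X) : Set X) := by
      rw [le_centralizer_iff]
    haveI : (centralizer (V : Set X)).Normal := inferInstance
    have hSV : S ≤ centralizer (V : Set X) := le_centralizer_iff.1 hVS
    obtain ⟨s, hs1, hs2⟩ := dih_ex π Nat.prime_three (by norm_num) hπ hπk hS hTS
    have h2 := dih_sup π Nat.prime_three (by norm_num) hπ hπk hS hTS (N := centralizer (V : Set X))
      (hTS.trans hSV) (fun h3 => hs2 (h3 (hSV hs1)))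
    have h3 : centralizer (V : Set X) = ⊤ := by rw [← h2, sup_eq_left.2 hSV]
    have h4 : V = ⊥ := by
      rw [eq_bot_iff]
      intro v hv
      rw [mem_bot]
      apply hVE v hv
      refine ⟨hVT hv, ?_⟩
      have h5 : d ∈ centralizer (V : Set X) := by rw [h3]; trivial
      rw [← mem_centralizer_iff.1 h5 v hv, mul_inv_cancel_right]
    rw [h4] at hVcard
    simp at hVcard
  obtain ⟨v₀, hv₀, hv₀S⟩ := SetLike.not_le_iff_exists.1 hVS
  have hES : E ≤ centralizer (S : Set X) := by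
    intro e he
    by_contra heS
    apply hv₀S
    have h1 := hC v₀ (hVT hv₀) e (hET he) hv₀S heS
    rw [mem_centralizer_iff] at h1 ⊢
    intro s hs'
    have h2 : s * (v₀ * e) = v₀ * e * s := h1 s hs'
    have h3 : v₀⁻¹ * (s * v₀ * s⁻¹) = e * (s * e * s⁻¹)⁻¹ := by
      have h4 : s * v₀ * s⁻¹ * (s * e * s⁻¹) = v₀ * e := by
        calc s * v₀ * s⁻¹ * (s * e * s⁻¹) = s * (v₀ * e) * s⁻¹ := by group
          _ = v₀ * e := by rw [h2]; group
      rw [eq_mul_inv_iff_mul_eq, mul_assoc, h4]; group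
    have h5 : v₀⁻¹ * (s * v₀ * s⁻¹) = 1 := by
      apply hVE
      · exact mul_mem (inv_mem hv₀) (hVn.conj_mem _ hv₀ _)
      · rw [h3]; exact mul_mem he (inv_mem (hEn.conj_mem _ he _))
    have h6 := inv_mul_eq_one.1 h5
    exact mul_inv_eq_iff_eq_mul.1 h6.symm
  have hEC : ∀ e ∈ E, ∀ x : X, e * x = x * e := by
    haveI hCn : (centralizer (E : Set X)).Normal := inferInstance
    have hSE : S ≤ centralizer (E : Set X) := le_centralizer_iff.1 hES
    obtain ⟨s, hs1, hs2⟩ := dih_ex π Nat.prime_three (by norm_num) hπ hπk hS hTS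
    have h2 := dih_sup π Nat.prime_three (by norm_num) hπ hπk hS hTS (N := centralizer (E : Set X))
      (hTS.trans hSE) (fun h3 => hs2 (h3 (hSE hs1)))
    have h3 : centralizer (E : Set X) = ⊤ := by rw [← h2, sup_eq_left.2 hSE]
    intro e he x
    have h4 : x ∈ centralizer (E : Set X) := by rw [h3]; trivial
    exact mem_centralizer_iff.1 h4 e he
  -- the complement
  obtain ⟨Q, hQ⟩ : ∃ Q : Subgroup X, Subgroup.IsComplement' (pCore 2 X) Q := by
    haveI : IsMulCommutative (pCore 2 X) := ⟨⟨fun a b => Subtype.ext (hTcm a a.2 b b.2)⟩⟩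
    have hBS' : B ≤ S := by rw [← hBS]; exact le_sup_left
    refine Hall.gaschutz_exists (pCore 2 X) S hTS ?_ B hBS' hBT (by rw [sup_comm]; exact hBS)
    obtain ⟨P, hP⟩ := hS.sylow_of_top
    obtain ⟨n, hn⟩ := IsPGroup.iff_card.1 (pCore_isPGroup 2 X)
    rw [hn]
    apply Nat.Coprime.pow_left
    rw [hpp.coprime_iff_not_dvd, ← hP]
    exact P.not_dvd_index
  have hQT : ∀ x ∈ Q, σ' x = 1 → x = 1 := by
    intro x hx h1
    have h2 : x ∈ pCore 2 X := by rw [← hk]; exact h1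
    have h3 := hQ.disjoint
    rw [disjoint_iff] at h3
    have h4 : x ∈ pCore 2 X ⊓ Q := ⟨h2, hx⟩
    rw [h3] at h4
    exact h4
  have hQs : ∀ A, ∃ x ∈ Q, σ' x = A := by
    intro A
    obtain ⟨g, rfl⟩ := hs A
    have h1 : g ∈ pCore 2 X ⊔ Q := by rw [hQ.sup_eq_top]; trivial
    rw [mem_sup_of_normal_left] at h1
    obtain ⟨y, hy, x, hx, rfl⟩ := h1
    refine ⟨x, hx, ?_⟩
    rw [← hk] at hy
    rw [map_mul, MonoidHom.mem_ker.1 hy, one_mul]
  refine ⟨V ⊔ Q, E, ?_, ?_, hEC, fun e he => hTp e (hET he), ?_, fun h1 => hv₀S (h1 (hVT hv₀)), ?_⟩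
  · rw [eq_top_iff, ← hQ.sup_eq_top]
    apply sup_le
    · intro x hx
      obtain ⟨v, hv, e, he, rfl⟩ := hsplit x hx
      exact mul_mem (mem_sup_left (mem_sup_left hv)) (mem_sup_right he)
    · exact le_sup_right.trans le_sup_left
  · rw [eq_bot_iff]
    rintro x ⟨hx, hxE⟩
    have hx' : x ∈ V ⊔ Q := hx
    have hxE' : x ∈ E := hxE
    rw [mem_sup_of_normal_left] at hx'
    obtain ⟨v, hv, y, hy, rfl⟩ := hx'
    have h1 : σ' y = 1 := by
      have h2 : v * y ∈ σ'.ker := by rw [hk]; exact hET hxE'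
      have h3 : v ∈ σ'.ker := by rw [hk]; exact hVT hv
      rw [MonoidHom.mem_ker, map_mul, MonoidHom.mem_ker.1 h3, one_mul] at h2
      exact h2
    have h2 := hQT y hy h1
    rw [h2, mul_one] at hxE' ⊢
    rw [mem_bot]
    exact hVE v hv hxE'
  · have h1 : V ⊔ E = pCore 2 X := by
      apply le_antisymm (sup_le hVT hET)
      intro x hx
      obtain ⟨v, hv, e, he, rfl⟩ := hsplit x hx
      exact mul_mem (mem_sup_left hv) (mem_sup_right he)
    have h2 : V ⊓ E = ⊥ := by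
      rw [eq_bot_iff]
      intro x hx
      exact mem_bot.2 (hVE x hx.1 hx.2)
    have h3 := card_sup_mul_card_inf (A := V) (B := E) (by rw [(normalizer_eq_top_iff).2 hEn]; exact le_top)
    rw [h1, h2, hVcard] at h3
    simpa using h3
  · exact qd_iso σ' V Q (by rw [hk]; exact hVT) hQT hQs ψ ⟨hψinj, hψsurj⟩ hψadd
      (fun x v w hw => hact x ⟨v, hVZ v.2⟩ ⟨w, hVZ w.2⟩ hw)

end

end Cfsg.Agent.H47
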