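import Cfsg.Agent.H47.WC
import Cfsg.Agent.H47.Cop

/-!
An abelian strongly closed subgroup controls strong fusion (S2791).
-/

set_option autoImplicit false
open Cfsg Subgroup
open scoped commutatorElement

namespace Cfsg.Agent.H47

variable {G : Type*} [Group G] [Finite G] {p : ℕ} [Fact p.Prime]

/-- `g` agrees with an element of `N_G(A)` on `D`. -/
def Agr (A D : Subgroup G) (g : G) : Prop :=
  ∃ h ∈ normalizer (A : Set G), ∀ x ∈ D, g * x * g⁻¹ = h * x * h⁻¹

omit [Finite G] in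
theorem Agr.mono {A D E : Subgroup G} {g : G} (h : Agr A E g) (hD : D ≤ E) : Agr A D g := by
  obtain ⟨k, hk, h⟩ := h
  exact ⟨k, hk, fun x hx => h x (hD hx)⟩

/-- the step at a fully normalized subgroup -/
theorem strcl_step {S A E : Subgroup G} (hS : IsPGroup p S) (hAab : A ≤ centralizer (A : Set G))
    (hAS : A ≤ S) (hcl : ∀ a ∈ A, ∀ g : G, g * a * g⁻¹ ∈ S → g * a * g⁻¹ ∈ A)
    (hES : E ≤ S) (hE : SylIn p (S ⊓ normalizer (E : Set G)) (normalizer (E : Set G)))
    (ih : ∀ F : Subgroup G, F ≤ S → E < F → ∀ g : G,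
      F.map (MulAut.conj g).toMonoidHom ≤ S → Agr A F g)
    {x : G} (hx : x ∈ normalizer (E : Set G)) : Agr A E x := by
  have hSA : S ≤ normalizer (A : Set G) := by
    rw [le_normalizer_iff]
    intro s hs a ha
    exact hcl a ha s (mul_mem (mul_mem hs (hAS ha)) (inv_mem hs))
  obtain ⟨B, hB⟩ : ∃ B, B = A ⊓ E := ⟨_, rfl⟩
  have hNB : normalizer (E : Set G) ≤ normalizer (B : Set G) := by
    rw [le_normalizer_iff]
    intro n hn b hb
    rw [hB] at hb ⊢
    have h1 : n * b * n⁻¹ ∈ E := (mem_normalizer_iff.1 hn b).1 (mem_inf.1 hb).2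
    exact mem_inf.2 ⟨hcl b (mem_inf.1 hb).1 n (hES h1), h1⟩
  have hBE : B ≤ E := by rw [hB]; exact inf_le_right
  have hBA : B ≤ A := by rw [hB]; exact inf_le_left
  obtain ⟨K, hK⟩ : ∃ K, K = normalizer (E : Set G) ⊓ (cmod E B ⊓ centralizer (B : Set G)) := ⟨_, rfl⟩
  have hKN : K ≤ normalizer (E : Set G) := by rw [hK]; exact inf_le_left
  have hNK : normalizer (E : Set G) ≤ normalizer (K : Set G) := by
    rw [hK]
    apply le_normalizer_inf le_normalizer
    apply le_normalizer_inf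
    · rw [le_normalizer_iff]
      intro n hn k hk
      rw [mem_cmod] at hk ⊢
      refine ⟨mul_mem (mul_mem (hNB hn) hk.1) (inv_mem (hNB hn)), ?_⟩
      intro v hv
      have h1 : n⁻¹ * v * n ∈ E := by
        have := (mem_normalizer_iff.1 (inv_mem hn) v).1 hv
        rwa [inv_inv] at this
      have h2 := (mem_normalizer_iff.1 (hNB hn) _).1 (hk.2 _ h1)
      have : n * ⁅k, n⁻¹ * v * n⁆ * n⁻¹ = ⁅n * k * n⁻¹, v⁆ := by
        simp only [commutatorElement_def]; group
      rwa [this] at h2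
    · exact hNB.trans (normalizer_le_normalizer_centralizer _)
  obtain ⟨K₁, hK₁⟩ : ∃ K₁, K₁ = E ⊔ K := ⟨_, rfl⟩
  have hEp : IsPGroup p E := hS.to_le hES
  have hK₁N : K₁ ≤ normalizer (E : Set G) := by rw [hK₁]; exact sup_le le_normalizer hKN
  have hNK₁ : normalizer (E : Set G) ≤ normalizer (K₁ : Set G) := by
    rw [hK₁]; exact le_normalizer_sup le_rfl hNK
  have hres : pRes p K₁ ≤ centralizer (E : Set G) := by
    rw [hK₁, pRes_sup_of_isPGroup hEp (le_normalizer.trans hNK)]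
    apply pRes_centralizes_of_chain (Q := B) (hEp.to_le hBE)
    · have : K ≤ cmod E B := by rw [hK]; exact inf_le_right.trans inf_le_left
      exact commutator_le_of_le_cmod this
    · rw [hK]; exact inf_le_right.trans inf_le_right
  obtain ⟨F, hF⟩ : ∃ F, F = S ⊓ K₁ := ⟨_, rfl⟩
  have hFsyl : SylIn p F K₁ := by
    have h1 := hE.inf_normal hK₁N hNK₁
    have h2 : S ⊓ normalizer (E : Set G) ⊓ K₁ = F := by
      rw [hF, inf_assoc, inf_eq_right.2 hK₁N]
    rwa [h2] at h1
  have hEF : E ≤ F := by rw [hF, hK₁]; exact le_inf hES le_sup_left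
  have hFS : F ≤ S := by rw [hF]; exact inf_le_left
  rcases eq_or_lt_of_le hEF with h | h
  · -- `A ≤ E`
    have hAN : A ⊓ normalizer (E : Set G) ≤ E := by
      conv_rhs => rw [h, hF]
      apply le_inf (inf_le_left.trans hAS)
      rw [hK₁, hK]
      refine le_trans ?_ le_sup_right
      apply le_inf inf_le_right
      apply le_inf
      · intro a ha
        obtain ⟨haA, haN⟩ := mem_inf.1 ha
        rw [mem_cmod]
        refine ⟨hNB haN, ?_⟩
        intro v hv
        rw [hB, commutatorElement_def]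
        refine mem_inf.2 ⟨?_, ?_⟩
        · have : a * v * a⁻¹ * v⁻¹ = a * (v * a⁻¹ * v⁻¹) := by group
          rw [this]
          exact mul_mem haA ((mem_normalizer_iff.1 (hSA (hES hv)) a⁻¹).1 (inv_mem haA))
        · exact mul_mem ((mem_normalizer_iff.1 haN v).1 hv) (inv_mem hv)
      · exact (inf_le_left.trans hAab).trans (centralizer_anti hBA)
    have hAE : A ≤ E := by
      by_contra hcon
      have hlt : E < A ⊔ E :=
        lt_of_le_of_ne le_sup_right (fun h => hcon (by rw [h]; exact le_sup_left))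
      have h3 := normalizer_grow (hS.to_le (sup_le hAS hES)) hlt
      obtain ⟨y, hy, hyE⟩ := SetLike.exists_of_lt h3
      obtain ⟨hy1, hy2⟩ := mem_inf.1 hy
      rw [sup_comm, mem_sup_of_le_normalizer (hES.trans hSA)] at hy1
      obtain ⟨e, he, a, ha, rfl⟩ := hy1
      apply hyE
      apply mul_mem he
      apply hAN
      refine mem_inf.2 ⟨ha, ?_⟩
      have : a = e⁻¹ * (e * a) := by group
      rw [this]
      exact mul_mem (inv_mem (le_normalizer he)) hy2
    refine ⟨x, ?_, fun _ _ => rfl⟩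
    apply mem_normalizer_of_map_conj_le
    rintro _ ⟨a, ha, rfl⟩
    exact hcl a ha x (hES ((mem_normalizer_iff.1 hx a).1 (hAE ha)))
  · obtain ⟨m, hm, hmF, k, hk, rfl⟩ := hFsyl.frattini hK₁N hNK₁ hx
    obtain ⟨r, hr, s, hs, rfl⟩ := mem_pRes_sup hFsyl hk
    have hsm : s * m ∈ normalizer (F : Set G) := mul_mem (le_normalizer hs) hmF
    obtain ⟨h', hh', h''⟩ := ih F hFS h (s * m) (by rw [norm_map_conj hsm]; exact hFS)
    refine ⟨h', hh', fun e he => ?_⟩
    rw [← h'' e (hEF he)]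
    have hsE : s ∈ normalizer (E : Set G) := hK₁N (hFsyl.le hs)
    have h4 : s * m * e * (s * m)⁻¹ ∈ E := (mem_normalizer_iff.1 (mul_mem hsE hm) e).1 he
    have h5 := mem_centralizer_iff.1 (hres hr) _ h4
    calc r * s * m * e * (r * s * m)⁻¹ = r * (s * m * e * (s * m)⁻¹) * r⁻¹ := by group
      _ = (s * m * e * (s * m)⁻¹) * r * r⁻¹ := by rw [← h5]
      _ = s * m * e * (s * m)⁻¹ := by group

theorem strcl_aux {S A : Subgroup G} (hS : SylIn p S ⊤) (hAab : A ≤ centralizer (A : Set G))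
    (hAS : A ≤ S) (hcl : ∀ a ∈ A, ∀ g : G, g * a * g⁻¹ ∈ S → g * a * g⁻¹ ∈ A) :
    ∀ n : ℕ, ∀ D : Subgroup G, D ≤ S → Nat.card S ≤ Nat.card D + n → ∀ g : G,
      D.map (MulAut.conj g).toMonoidHom ≤ S → Agr A D g := by
  have hfull : ∀ D : Subgroup G, D ≤ S → Nat.card S ≤ Nat.card D → ∀ g : G,
      D.map (MulAut.conj g).toMonoidHom ≤ S → Agr A D g := by
    intro D hD hcard g hg
    have hDS : D = S := Subgroup.eq_of_le_of_card_ge hD hcard
    rw [hDS] at hg ⊢
    refine ⟨g, ?_, fun _ _ => rfl⟩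
    apply mem_normalizer_of_map_conj_le
    rintro _ ⟨a, ha, rfl⟩
    exact hcl a ha g (hg (mem_map_of_mem _ (hAS ha)))
  intro n
  induction n with
  | zero =>
    intro D hD hcard g hg
    exact hfull D hD (by simpa using hcard) g hg
  | succ n ih =>
    intro D hD hcard g hg
    by_cases hfull' : Nat.card S ≤ Nat.card D
    · exact hfull D hD hfull' g hg
    have hSp := hS.isPGroup
    -- a fully normalized conjugate
    obtain ⟨P, hP, hDP⟩ := SylIn.exists_of_le (p := p) (le_normalizer : D ≤ normalizer (D : Set G))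
      (hSp.to_le hD)
    obtain ⟨z, _, hz⟩ := hS.exists_conj_le le_top hP.isPGroup
    obtain ⟨E, hE⟩ : ∃ E, E = D.map (MulAut.conj z).toMonoidHom := ⟨_, rfl⟩
    have hES : E ≤ S := by rw [hE]; exact (map_conj_mono hDP).trans hz
    have hEcard : Nat.card E = Nat.card D := by rw [hE, card_map_conj]
    have hsyl : SylIn p (S ⊓ normalizer (E : Set G)) (normalizer (E : Set G)) := by
      have h1 := hP.map_conj z
      rw [← normalizer_map_conj, ← hE] at h1
      have h2 : P.map (MulAut.conj z).toMonoidHom ≤ S ⊓ normalizer (E : Set G) := le_inf hz h1.le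
      rwa [← h1.eq_of_le inf_le_right (hSp.to_le inf_le_left) h2] at h1
    have ih' : ∀ F : Subgroup G, F ≤ S → Nat.card D < Nat.card F → ∀ g : G,
        F.map (MulAut.conj g).toMonoidHom ≤ S → Agr A F g :=
      fun F hF hlt g hg => ih F hF (by omega) g hg
    have key1 : ∀ x ∈ normalizer (E : Set G), Agr A E x := fun x hx =>
      strcl_step hSp hAab hAS hcl hES hsyl (fun F hF hlt g hg =>
        ih' F hF (by rw [← hEcard]; exact card_lt_of_lt' hlt) g hg) hx
    have key2 : ∀ D' : Subgroup G, D' ≤ S → ∀ y : G, D'.map (MulAut.conj y).toMonoidHom = E →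
        ∃ k : G, D'.map (MulAut.conj k).toMonoidHom = E ∧ Agr A D' k := by
      intro D' hD' y hy
      have hcD' : Nat.card D' = Nat.card D := by rw [← hEcard, ← hy, card_map_conj]
      have hlt : D' < S := by
        refine lt_of_le_of_ne hD' (fun h => hfull' ?_)
        rw [← hcD', h]
      have h1 := normalizer_grow hSp hlt
      have h2 : (S ⊓ normalizer (D' : Set G)).map (MulAut.conj y).toMonoidHom ≤
          normalizer (E : Set G) := by
        rw [← hy, normalizer_map_conj]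
        exact map_conj_mono inf_le_right
      obtain ⟨w, hw, hw'⟩ := hsyl.exists_conj_le h2 ((hSp.to_le inf_le_left).map _)
      rw [← map_conj_mul] at hw'
      refine ⟨w * y, ?_, ?_⟩
      · rw [map_conj_mul, hy, norm_map_conj hw]
      · apply Agr.mono (ih' _ inf_le_left (by rw [← hcD']; exact card_lt_of_lt' h1) _
          (hw'.trans inf_le_left)) h1.le
    obtain ⟨k₁, hk₁, h₁, hh₁, ha₁⟩ := key2 D hD z hE.symm
    obtain ⟨k₂, hk₂, h₂, hh₂, ha₂⟩ := key2 _ hg (z * g⁻¹) (by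
      rw [← map_conj_mul, inv_mul_cancel_right, hE])
    have hn : k₂ * g * k₁⁻¹ ∈ normalizer (E : Set G) := by
      rw [mem_normalizer_iff_map_conj]
      conv_lhs => rw [← hk₁]
      rw [← map_conj_mul, inv_mul_cancel_right, map_conj_mul, hk₂]
    obtain ⟨h₃, hh₃, ha₃⟩ := key1 _ hn
    refine ⟨h₂⁻¹ * h₃ * h₁, mul_mem (mul_mem (inv_mem hh₂) hh₃) hh₁, ?_⟩
    intro x hx
    have e1 := ha₁ x hx
    have hxE : k₁ * x * k₁⁻¹ ∈ E := by rw [← hk₁]; exact mem_map_of_mem _ hx
    have e3 := ha₃ _ hxE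
    have hxD : g * x * g⁻¹ ∈ D.map (MulAut.conj g).toMonoidHom := mem_map_of_mem _ hx
    have e2 := ha₂ _ hxD
    calc g * x * g⁻¹ = h₂⁻¹ * (h₂ * (g * x * g⁻¹) * h₂⁻¹) * h₂ := by group
      _ = h₂⁻¹ * (k₂ * (g * x * g⁻¹) * k₂⁻¹) * h₂ := by rw [e2]
      _ = h₂⁻¹ * (k₂ * g * k₁⁻¹ * (k₁ * x * k₁⁻¹) * (k₂ * g * k₁⁻¹)⁻¹) * h₂ := by group
      _ = h₂⁻¹ * (h₃ * (k₁ * x * k₁⁻¹) * h₃⁻¹) * h₂ := by rw [e3]
      _ = h₂⁻¹ * (h₃ * (h₁ * x * h₁⁻¹) * h₃⁻¹) * h₂ := by rw [e1]
      _ = h₂⁻¹ * h₃ * h₁ * x * (h₂⁻¹ * h₃ * h₁)⁻¹ := by group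
where
  card_lt_of_lt' {H K : Subgroup G} (h : H < K) : Nat.card H < Nat.card K := by
    by_contra hc
    exact h.ne (Subgroup.eq_of_le_of_card_ge h.le (not_lt.1 hc))

end Cfsg.Agent.H47
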