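import Cfsg.Agent.H47.Yosh

/-!
Yoshida's theorem: the wreath product as an image (S2807).
-/

set_option autoImplicit false
open Cfsg Subgroup
open scoped commutatorElement

namespace Cfsg.Agent.H47

section wreath

variable {p : ℕ} [Fact p.Prime]

/-- injectivity of `c ↦ ∑ c_j T^j a` for `T = E - 1` -/
theorem shift_injective {a : ℕ → ZMod p} (hper : ∀ i, a (i + p) = a i)
    (hs : ∑ i ∈ Finset.range p, a i ≠ 0) :
    Function.Injective (fun c : Fin p → ZMod p =>
      ∑ j : Fin p, c j • ((shiftOp p - 1) ^ (j : ℕ)) a) := by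
  have hp : 0 < p := (Fact.out : p.Prime).pos
  set T := shiftOp p - 1 with hT
  have hTp : (T ^ p) a = 0 := by
    have h1 : (T ^ p) = shiftOp p ^ p - 1 := by
      have h2 := congrArg (Polynomial.aeval (shiftOp p))
        (sub_pow_char (Polynomial.X : Polynomial (ZMod p)) 1 (p := p))
      rw [map_pow, map_sub, Polynomial.aeval_X, map_one, map_sub, map_pow, Polynomial.aeval_X,
        one_pow, map_one] at h2
      exact h2
    rw [h1]
    funext j
    rw [LinearMap.sub_apply, Pi.sub_apply, shiftOp_pow, Module.End.one_apply, hper, sub_self]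
    rfl
  have hTge : ∀ n, p ≤ n → (T ^ n) a = 0 := by
    intro n hn
    obtain ⟨m, rfl⟩ := Nat.exists_eq_add_of_le hn
    rw [add_comm, pow_add, Module.End.mul_apply, hTp, map_zero]
  have hTp1 : (T ^ (p - 1)) a 0 ≠ 0 := by
    rw [hT, shift_identity]
    simpa using hs
  -- kernel is trivial
  have hker : ∀ c : Fin p → ZMod p, ∑ j : Fin p, c j • (T ^ (j : ℕ)) a = 0 → c = 0 := by
    intro c hc
    have key : ∀ n : ℕ, ∀ j : Fin p, (j : ℕ) = n → c j = 0 := by
      intro n
      induction n using Nat.strong_induction_on with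
      | _ n ih =>
        intro j hj
        have h1 := congrArg (T ^ (p - 1 - n)) hc
        rw [map_sum, map_zero] at h1
        rw [Finset.sum_eq_single j] at h1
        · rw [map_smul, ← Module.End.mul_apply, ← pow_add] at h1
          have h2 : p - 1 - n + (j : ℕ) = p - 1 := by have := j.2; omega
          rw [h2] at h1
          have h3 := congrFun h1 0
          rw [Pi.smul_apply, Pi.zero_apply, smul_eq_mul] at h3
          exact (mul_eq_zero.1 h3).resolve_right hTp1
        · intro i _ hij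
          rcases lt_trichotomy (i : ℕ) n with h | h | h
          · rw [ih i h i rfl, zero_smul, map_zero]
          · exfalso
            apply hij
            apply Fin.ext
            rw [h, hj]
          · rw [map_smul, ← Module.End.mul_apply, ← pow_add, hTge _ (by have := i.2; omega),
              smul_zero]
        · intro h; exact absurd (Finset.mem_univ j) h
    funext j
    exact key j j rfl
  intro c d hcd
  have h1 : ∑ j : Fin p, (c - d) j • (T ^ (j : ℕ)) a = 0 := by
    simp only [Pi.sub_apply, sub_smul, Finset.sum_sub_distrib]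
    exact sub_eq_zero.2 hcd
  exact sub_eq_zero.1 (hker _ h1)

theorem factorization_sq_factorial : ((p ^ 2).factorial).factorization p = p + 1 := by
  have hp : p.Prime := Fact.out
  have h1 := sub_one_mul_padicValNat_factorial (p := p) (p ^ 2)
  have h2 : (p.digits (p ^ 2)).sum = 1 := by
    rw [← mul_one (p ^ 2), Nat.digits_base_pow_mul hp.one_lt (by norm_num)]
    simp [Nat.digits_of_lt p 1 one_ne_zero hp.one_lt]
  rw [h2] at h1
  rw [Nat.factorization_def _ hp]
  have h3 : p ^ 2 - 1 = (p - 1) * (p + 1) := by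
    obtain ⟨q, rfl⟩ : ∃ q, p = q + 1 := ⟨p - 1, by have := hp.pos; omega⟩
    simp only [Nat.add_sub_cancel]
    have : (q + 1) ^ 2 = q * (q + 1 + 1) + 1 := by ring
    rw [this, Nat.add_sub_cancel]
  rw [h3] at h1
  exact Nat.eq_of_mul_eq_mul_left (by have := hp.one_lt; omega) h1

theorem wreath_image {P : Type*} [Group P] [Finite P] (hP : IsPGroup p P) (L : Subgroup P)
    [hLn : L.Normal] (hL : L.index = p) {z u : P} (hz : z ∉ L)
    (ψ : L →* Multiplicative (ZMod p)) (hmem : ∀ i : ℕ, (z ^ i)⁻¹ * u * z ^ i ∈ L)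
    (hprod : ∏ i ∈ Finset.range p, ψ ⟨_, hmem i⟩ ≠ 1) :
    ∃ (Q : Sylow p (Equiv.Perm (Fin (p ^ 2))))
      (f : P →* ↥(Q : Subgroup (Equiv.Perm (Fin (p ^ 2))))), Function.Surjective f := by
  classical
  have hp : p.Prime := Fact.out
  have hconj : ∀ (v : P), v ∈ L → ∀ i : ℕ, (z ^ i)⁻¹ * v * z ^ i ∈ L := by
    intro v hv i
    have h1 := hLn.conj_mem v hv (z ^ i)⁻¹
    rwa [inv_inv] at h1
  have huL : u ∈ L := by simpa using hmem 0
  let a : L → ℕ → ZMod p := fun v i => Multiplicative.toAdd (ψ ⟨_, hconj v v.2 i⟩)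
  have ha_mul : ∀ v w : L, a (v * w) = a v + a w := by
    intro v w
    funext i
    change Multiplicative.toAdd (ψ _) = Multiplicative.toAdd (ψ _) + Multiplicative.toAdd (ψ _)
    rw [← toAdd_mul, ← map_mul]
    congr 2
    apply Subtype.ext
    simp only [Subgroup.coe_mul]
    group
  have ha_one : a 1 = 0 := by
    have h1 := ha_mul 1 1
    rw [mul_one] at h1
    exact (left_eq_add.1 h1)
  let Λ : L →* Multiplicative (ℕ → ZMod p) :=
    { toFun := fun v => Multiplicative.ofAdd (a v)
      map_one' := by rw [ha_one]; rfl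
      map_mul' := fun v w => by rw [ha_mul]; rfl }
  have hf : ∀ v : P, v ∈ L → v⁻¹ * z⁻¹ * v * z ∈ L := by
    intro v hv
    have h3 := hconj v hv 1
    rw [pow_one] at h3
    have : v⁻¹ * z⁻¹ * v * z = v⁻¹ * (z⁻¹ * v * z) := by group
    rw [this]
    exact mul_mem (inv_mem hv) h3
  have hstep : ∀ (v : L), a ⟨_, hf v v.2⟩ = (shiftOp p - 1) (a v) := by
    intro v
    funext i
    have h4 : (⟨_, hconj _ (hf v v.2) i⟩ : L) = ⟨_, hconj v v.2 i⟩⁻¹ * ⟨_, hconj v v.2 (i + 1)⟩ := by
      apply Subtype.ext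
      simp only [Subgroup.coe_mul, Subgroup.coe_inv]
      rw [pow_succ']
      group
    change Multiplicative.toAdd (ψ _) = a v (i + 1) - a v i
    rw [h4, map_mul, map_inv, toAdd_mul, toAdd_inv]
    change - a v i + a v (i + 1) = _
    ring
  -- periodicity
  have hzp : z ^ p ∈ L := by
    have h1 : ((z : P) : P ⧸ L) ^ Nat.card (P ⧸ L) = 1 := pow_card_eq_one'
    have h2 : Nat.card (P ⧸ L) = p := hL
    rw [h2] at h1
    rw [← QuotientGroup.eq_one_iff]
    exact h1
  have hper : ∀ (v : L) (i : ℕ), a v (i + p) = a v i := by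
    intro v i
    change Multiplicative.toAdd (ψ _) = Multiplicative.toAdd (ψ _)
    congr 1
    have h5 : (⟨_, hconj v v.2 (i + p)⟩ : L) =
        ⟨z ^ p, hzp⟩⁻¹ * ⟨_, hconj v v.2 i⟩ * ⟨z ^ p, hzp⟩ := by
      apply Subtype.ext
      simp only [Subgroup.coe_mul, Subgroup.coe_inv]
      rw [pow_add]
      group
    rw [h5, map_mul, map_mul, map_inv, mul_comm (ψ ⟨z ^ p, hzp⟩)⁻¹, inv_mul_cancel_right]
  have hsum : ∑ i ∈ Finset.range p, a ⟨u, huL⟩ i ≠ 0 := by
    intro h
    apply hprod
    apply Multiplicative.toAdd.injective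
    rw [toAdd_prod, toAdd_one]
    exact h
  have hinj := shift_injective (a := a ⟨u, huL⟩) (hper _) hsum
  -- range of `Λ`
  have hT : ∀ n : ℕ, ∃ v : L, a v = ((shiftOp p - 1) ^ n) (a ⟨u, huL⟩) := by
    intro n
    induction n with
    | zero => exact ⟨⟨u, huL⟩, by simp⟩
    | succ n ih =>
      obtain ⟨v, hv⟩ := ih
      refine ⟨⟨_, hf v v.2⟩, ?_⟩
      rw [hstep, hv, pow_succ', Module.End.mul_apply]
  have hsmul : ∀ (c : ZMod p) (v : L), ∃ w : L, a w = c • a v := by
    intro c v
    refine ⟨v ^ c.val, ?_⟩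
    have h6 : ∀ n : ℕ, a (v ^ n) = (n : ZMod p) • a v := by
      intro n
      induction n with
      | zero => rw [pow_zero, ha_one, Nat.cast_zero, zero_smul]
      | succ n ih => rw [pow_succ, ha_mul, ih, Nat.cast_succ, add_smul, one_smul]
    rw [h6, ZMod.natCast_zmod_val]
  have hadd : ∀ (s : Finset (Fin p)) (F : Fin p → ℕ → ZMod p), (∀ j, ∃ v : L, a v = F j) →
      ∃ v : L, a v = ∑ j ∈ s, F j := by
    intro s F hF
    induction s using Finset.induction_on with
    | empty => exact ⟨1, by rw [ha_one, Finset.sum_empty]⟩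
    | insert j s hj ih =>
      obtain ⟨v, hv⟩ := hF j
      obtain ⟨w, hw⟩ := ih
      exact ⟨v * w, by rw [ha_mul, Finset.sum_insert hj, hv, hw]⟩
  have hcardΛ : p ^ p ≤ Nat.card Λ.range := by
    have h7 : ∀ c : Fin p → ZMod p, Multiplicative.ofAdd
        (∑ j : Fin p, c j • ((shiftOp p - 1) ^ (j : ℕ)) (a ⟨u, huL⟩)) ∈ Λ.range := by
      intro c
      obtain ⟨v, hv⟩ := hadd Finset.univ (fun j => c j • ((shiftOp p - 1) ^ (j : ℕ)) (a ⟨u, huL⟩))
        (fun j => by
          obtain ⟨w, hw⟩ := hT j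
          rw [← hw]
          exact hsmul _ _)
      refine ⟨v, ?_⟩
      change Multiplicative.ofAdd (a v) = _
      rw [hv]
    have h8 : Nat.card (Fin p → ZMod p) ≤ Nat.card Λ.range := by
      have : Finite Λ.range := Finite.of_surjective Λ.rangeRestrict Λ.rangeRestrict_surjective
      apply Nat.card_le_card_of_injective (fun c => (⟨_, h7 c⟩ : Λ.range))
      intro c d hcd
      exact hinj (congrArg (fun x : Λ.range => Multiplicative.toAdd (x : Multiplicative (ℕ → ZMod p))) hcd)
    have h9 : Nat.card (Fin p → ZMod p) = p ^ p := by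
      simp [Nat.card_eq_fintype_card, ZMod.card]
    rwa [h9] at h8
  -- the subgroup `K`
  set K : Subgroup P := ψ.ker.map L.subtype with hK
  have hKL : K ≤ L := map_subtype_le _
  have hKL' : K.subgroupOf L = ψ.ker := by
    rw [hK, subgroupOf, comap_map_eq_self_of_injective L.subtype_injective]
  have hψker : ψ.ker.index = p := by
    rw [Subgroup.index_ker]
    have h1 : ψ.range = ⊤ := by
      have h2 : ∃ v : L, ψ v ≠ 1 := by
        by_contra hcon
        push Not at hcon
        apply hprod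
        exact Finset.prod_eq_one fun i _ => hcon _
      obtain ⟨v, hv⟩ := h2
      have hcard : Nat.card (Multiplicative (ZMod p)) = p := by simp
      rw [eq_top_iff, ← zpowers_eq_top_of_prime_card hcard hv, zpowers_le]
      exact ⟨v, rfl⟩
    rw [h1, Subgroup.card_top]
    simp
  have hKi : K.index = p ^ 2 := by
    rw [← Subgroup.relIndex_mul_index hKL, Subgroup.relIndex, hKL', hψker, hL, sq]
  have hcardq : Nat.card (P ⧸ K) = p ^ 2 := hKi
  let _ : Fintype (P ⧸ K) := Fintype.ofFinite _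
  have hcq : Fintype.card (P ⧸ K) = Fintype.card (Fin (p ^ 2)) := by
    rw [Fintype.card_fin, ← hcardq, Nat.card_eq_fintype_card]
  let e : (P ⧸ K) ≃ Fin (p ^ 2) := Fintype.equivOfCardEq hcq
  let F : P →* Equiv.Perm (Fin (p ^ 2)) :=
    (e.permCongrHom.toMonoidHom).comp (MulAction.toPermHom P (P ⧸ K))
  have hkerF : F.ker.map (MonoidHom.id P) ≤ (Λ.ker).map L.subtype := by
    rw [Subgroup.map_id]
    intro y hy
    have hy1 : MulAction.toPermHom P (P ⧸ K) y = 1 := by
      have : e.permCongrHom.toMonoidHom (MulAction.toPermHom P (P ⧸ K) y) = 1 := hy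
      exact (map_eq_one_iff _ e.permCongrHom.injective).1 this
    have hy2 : ∀ x : P, x⁻¹ * y * x ∈ K := by
      intro x
      have h1 : MulAction.toPermHom P (P ⧸ K) y (x : P ⧸ K) = (x : P ⧸ K) := by rw [hy1]; rfl
      have h2 : ((y * x : P) : P ⧸ K) = (x : P ⧸ K) := h1
      rw [eq_comm, QuotientGroup.eq, ← mul_assoc] at h2
      exact h2
    have hyL : y ∈ L := hKL (by simpa using hy2 1)
    refine ⟨⟨y, hyL⟩, ?_, rfl⟩
    change Λ _ = 1
    change Multiplicative.ofAdd (a ⟨y, hyL⟩) = 1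
    have h3 : a ⟨y, hyL⟩ = 0 := by
      funext i
      have h4 := hy2 (z ^ i)
      obtain ⟨w, hw, hwy⟩ := h4
      change Multiplicative.toAdd (ψ _) = 0
      have h5 : (⟨_, hconj y hyL i⟩ : L) = w := Subtype.ext hwy.symm
      rw [h5, (MonoidHom.mem_ker).1 hw]
      rfl
    rw [h3]; rfl
  rw [Subgroup.map_id] at hkerF
  have hcardF : p ^ (p + 1) ≤ Nat.card F.range := by
    rw [← Subgroup.index_ker]
    have h1 : (Λ.ker.map L.subtype).index ≤ F.ker.index :=
      Nat.le_of_dvd (Nat.pos_of_ne_zero FiniteIndex.index_ne_zero) (Subgroup.index_dvd_of_le hkerF)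
    have h2 : (Λ.ker.map L.subtype).index = Nat.card Λ.range * p := by
      have h3 : Λ.ker.map L.subtype ≤ L := map_subtype_le _
      rw [← Subgroup.relIndex_mul_index h3, hL, Subgroup.relIndex, subgroupOf,
        comap_map_eq_self_of_injective L.subtype_injective, Subgroup.index_ker]
    rw [h2] at h1
    calc p ^ (p + 1) = p ^ p * p := pow_succ _ _
      _ ≤ Nat.card Λ.range * p := Nat.mul_le_mul_right _ hcardΛ
      _ ≤ _ := h1
  have hFp : IsPGroup p F.range := hP.of_surjective F.rangeRestrict F.rangeRestrict_surjective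
  obtain ⟨Q, hQ⟩ := hFp.exists_le_sylow
  have hQcard : Nat.card (Q : Subgroup (Equiv.Perm (Fin (p ^ 2)))) = p ^ (p + 1) := by
    rw [Q.card_eq_multiplicity, Nat.card_perm, Nat.card_fin, factorization_sq_factorial]
  have hEq : F.range = (Q : Subgroup (Equiv.Perm (Fin (p ^ 2)))) := by
    apply Subgroup.eq_of_le_of_card_ge hQ
    rw [hQcard]; exact hcardF
  refine ⟨Q, F.codRestrict _ (fun x => hQ ⟨x, rfl⟩), ?_⟩
  rintro ⟨y, hy⟩
  rw [← hEq] at hy
  obtain ⟨x, hx⟩ := hy
  exact ⟨x, Subtype.ext hx⟩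

theorem yoshida {G : Type*} [Group G] [Finite G] {S : Subgroup G} (hS : SylIn p S ⊤)
    (h : S ⊓ commutator G ≠ S ⊓ ⁅normalizer (S : Set G), normalizer (S : Set G)⁆) :
    ∃ (Q : Sylow p (Equiv.Perm (Fin (p ^ 2))))
      (f : S →* ↥(Q : Subgroup (Equiv.Perm (Fin (p ^ 2))))), Function.Surjective f := by
  obtain ⟨L, u, z, ψ, huS, huL, hzW, hzL, hLK, hKL, hLi, hmem, hprod⟩ := yoshida_core hS le_rfl
    (fun g hg => mem_normalizer_of_map_conj_le hg) h
  have hSu : S ⊔ zpowers u = S := sup_eq_left.2 (by rwa [zpowers_le])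
  rw [hSu] at hLK hKL hLi
  have hn : (L.subgroupOf S).Normal := normal_subgroupOf_of_le hKL
  let ι : L.subgroupOf S →* L :=
    (S.subtype.comp (L.subgroupOf S).subtype).codRestrict L (fun x => x.2)
  exact wreath_image (hS.isPGroup) (L.subgroupOf S) hLi (z := ⟨z, hzW⟩) (u := ⟨u, huS⟩)
    (by rw [mem_subgroupOf]; exact hzL) (ψ.comp ι) (fun i => hmem i) hprod

end wreath

end Cfsg.Agent.H47
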