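import Cfsg.Agent.H47.Coc
import Cfsg.Agent.H47.Cop
import Cfsg.Agent.H47.WC

/-!
Yoshida's transfer theorem.
-/

set_option autoImplicit false
open Cfsg Subgroup
open scoped commutatorElement

namespace Cfsg.Agent.H47

section theta

variable {G : Type*} [Group G] [Finite G] {p : ℕ} [Fact p.Prime]

omit [Finite G] in
theorem cprod_comp {N : Subgroup G} {C D : Type*} [CommGroup C] [CommGroup D] (θ : N →* C)
    (f : C →* D) (Ω : Finset (G ⧸ N)) (g : G) : cprod (f.comp θ) Ω g = f (cprod θ Ω g) := by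
  unfold cprod
  rw [map_prod]
  rfl

theorem prime_of_coatom_comm {B : Type*} [CommGroup B] [Finite B] {M : Subgroup B}
    (hM : IsCoatom M) : (Nat.card (B ⧸ M)).Prime := by
  have hs : IsSimpleGroup (B ⧸ M) := by
    have hne : Nontrivial (B ⧸ M) := by
      rw [QuotientGroup.nontrivial_iff]; exact hM.1
    refine ⟨fun H _ => ?_⟩
    have h1 : M ≤ H.comap (QuotientGroup.mk' M) := by
      intro x hx
      rw [mem_comap, QuotientGroup.mk'_apply, (QuotientGroup.eq_one_iff x).2 hx]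
      exact one_mem _
    rcases eq_or_lt_of_le h1 with h | h
    · left
      rw [eq_bot_iff]
      intro y hy
      obtain ⟨x, rfl⟩ := QuotientGroup.mk'_surjective M y
      have : x ∈ H.comap (QuotientGroup.mk' M) := hy
      rw [← h] at this
      rw [mem_bot, QuotientGroup.mk'_apply, QuotientGroup.eq_one_iff]
      exact this
    · right
      have h2 := hM.2 _ h
      rw [eq_top_iff]
      intro y _
      obtain ⟨x, rfl⟩ := QuotientGroup.mk'_surjective M y
      have : x ∈ H.comap (QuotientGroup.mk' M) := by rw [h2]; trivial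
      exact this
  exact IsSimpleGroup.prime_card

/-- existence of the character `θ` -/
theorem exists_theta {S N : Subgroup G} [Fintype (G ⧸ N)] (hS : SylIn p S ⊤) (hSN : S ≤ N)
    (h : S ⊓ commutator G ≠ S ⊓ ⁅N, N⁆) :
    ∃ θ : N →* Multiplicative (ZMod p), (∀ s ∈ S, cprod θ Finset.univ s = 1) ∧
      ∃ (u : G) (hu : u ∈ S), θ ⟨u, hSN hu⟩ ≠ 1 := by
  classical
  let B := Abelianization N
  let ϕ : N →* B := Abelianization.of
  let τ : G →* B :=
    { toFun := cprod ϕ Finset.univ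
      map_one' := cprod_one ϕ _
      map_mul' := fun g k => cprod_mul ϕ (inv_univ k) }
  let a : S →* B := τ.comp S.subtype
  let b : S →* B := ϕ.comp (inclusion hSN)
  have hSp := hS.isPGroup
  -- ranges
  have hnot : ¬ b.range ≤ a.range := by
    intro hle
    have h1 : Nat.card b.range ≤ Nat.card a.range := Subgroup.card_le_of_le hle
    rw [← Subgroup.index_ker, ← Subgroup.index_ker] at h1
    have hka : (commutator G).subgroupOf S ≤ a.ker := by
      intro x hx
      rw [mem_subgroupOf] at hx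
      have h2 : commutator G ≤ τ.ker := Abelianization.commutator_subset_ker τ
      exact h2 hx
    have hkb : b.ker = (⁅N, N⁆).subgroupOf S := by
      ext x
      rw [MonoidHom.mem_ker, mem_subgroupOf, ← map_subtype_commutator]
      constructor
      · intro hx
        have : (inclusion hSN x) ∈ commutator N := by
          rw [← Abelianization.ker_of, MonoidHom.mem_ker]; exact hx
        exact ⟨_, this, rfl⟩
      · rintro ⟨y, hy, hyx⟩
        have : y = inclusion hSN x := Subtype.ext hyx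
        rw [this] at hy
        have h3 : (inclusion hSN x) ∈ (Abelianization.of : N →* _).ker := by
          rw [Abelianization.ker_of]; exact hy
        exact h3
    have hlt : (⁅N, N⁆).subgroupOf S < (commutator G).subgroupOf S := by
      refine lt_of_le_of_ne ?_ ?_
      · exact comap_mono (commutator_mono le_top le_top)
      · intro he
        apply h
        have := congrArg (Subgroup.map S.subtype) he
        rw [subgroupOf_map_subtype, subgroupOf_map_subtype] at this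
        rw [inf_comm, ← this, inf_comm]
    have h2 : a.ker.index ≤ ((commutator G).subgroupOf S).index :=
      Nat.le_of_dvd (Nat.pos_of_ne_zero FiniteIndex.index_ne_zero) (Subgroup.index_dvd_of_le hka)
    have h3 : ((commutator G).subgroupOf S).index < ((⁅N, N⁆).subgroupOf S).index :=
      Subgroup.index_strictAnti hlt
    rw [hkb] at h1
    omega
  -- the `p'`-part of `B`
  obtain ⟨k, m, hm, hcard⟩ : ∃ k m : ℕ, m.Coprime p ∧ Nat.card B = p ^ k * m := by
    refine ⟨(Nat.card B).factorization p, Nat.card B / p ^ (Nat.card B).factorization p, ?_, ?_⟩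
    · exact (Nat.coprime_ordCompl Fact.out Nat.card_pos.ne').symm
    · exact (Nat.ordProj_mul_ordCompl_eq_self _ _).symm
  let P' : Subgroup B := (powMonoidHom m : B →* B).ker
  have hT : ¬ b.range ≤ a.range ⊔ P' := by
    intro hle
    apply hnot
    intro x hx
    have hxT := hle hx
    rw [Subgroup.mem_sup] at hxT
    obtain ⟨y, hy, r, hr, hyr⟩ := hxT
    have hxp : ∃ i : ℕ, x ^ (p ^ i) = 1 := by
      obtain ⟨s, rfl⟩ := hx
      obtain ⟨i, hi⟩ := hSp s
      exact ⟨i, by rw [← map_pow, hi, map_one]⟩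
    have hyp : ∃ i : ℕ, y ^ (p ^ i) = 1 := by
      obtain ⟨s, rfl⟩ := hy
      obtain ⟨i, hi⟩ := hSp s
      exact ⟨i, by rw [← map_pow, hi, map_one]⟩
    obtain ⟨i, hi⟩ := hxp
    obtain ⟨j, hj⟩ := hyp
    have hr1 : r ^ m = 1 := hr
    have hr2 : r ^ (p ^ (i + j)) = 1 := by
      have : r = x * y⁻¹ := by rw [← hyr]; rw [mul_comm y r, mul_inv_cancel_right]
      rw [this, mul_pow, inv_pow, pow_add, pow_mul, hi, one_pow, mul_comm (p ^ i), pow_mul, hj]
      simp
    have hr3 : r ∈ (⊥ : Subgroup B) :=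
      eq_mem_of_pow_mem_coprime (m := p ^ (i + j)) (n := m) (Nat.Coprime.pow_right _ hm)
        (by rw [hr2]; exact one_mem _) (by rw [hr1]; exact one_mem _)
    rw [mem_bot] at hr3
    rw [← hyr, hr3, mul_one]
    exact hy
  obtain hh | ⟨M, hM, hTM⟩ := eq_top_or_exists_le_coatom (a.range ⊔ P')
  · exact absurd (hh ▸ le_top) hT
  have hq := prime_of_coatom_comm hM
  have hqp : Nat.card (B ⧸ M) = p := by
    have hex : ∃ x : B, x ∉ M := by
      by_contra hcon
      push Not at hcon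
      exact hM.1 (eq_top_iff.2 fun x _ => hcon x)
    obtain ⟨x, hx⟩ := hex
    have h1 : x ^ (p ^ k) ∈ M := by
      apply hTM
      apply mem_sup_right
      change (x ^ (p ^ k)) ^ m = 1
      rw [← pow_mul, ← hcard, pow_card_eq_one']
    have h2 : orderOf (QuotientGroup.mk' M x) ∣ p ^ k := by
      rw [orderOf_dvd_iff_pow_eq_one, ← map_pow, QuotientGroup.mk'_apply, QuotientGroup.eq_one_iff]
      exact h1
    have h3 : orderOf (QuotientGroup.mk' M x) ∣ Nat.card (B ⧸ M) := orderOf_dvd_natCard _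
    have h4 : orderOf (QuotientGroup.mk' M x) ≠ 1 := by
      rw [Ne, orderOf_eq_one_iff, QuotientGroup.mk'_apply, QuotientGroup.eq_one_iff]
      exact hx
    have h5 := (Nat.Prime.eq_one_or_self_of_dvd hq _ h3).resolve_left h4
    rw [h5] at h2
    exact (Nat.prime_dvd_prime_iff_eq hq Fact.out).1 (hq.dvd_of_dvd_pow h2)
  have hcyc : IsCyclic (B ⧸ M) := isCyclic_of_prime_card (p := p) hqp
  let e : (B ⧸ M) ≃* Multiplicative (ZMod p) :=
    mulEquivOfPrimeCardEq (p := p) hqp (by simp)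
  refine ⟨(e.toMonoidHom.comp (QuotientGroup.mk' M)).comp ϕ, ?_, ?_⟩
  · intro s hs
    rw [cprod_comp]
    have h1 : cprod ϕ Finset.univ s ∈ M := hTM (mem_sup_left ⟨⟨s, hs⟩, rfl⟩)
    have h2 : QuotientGroup.mk' M (cprod ϕ Finset.univ s) = 1 := by
      rw [QuotientGroup.mk'_apply, QuotientGroup.eq_one_iff]; exact h1
    rw [MonoidHom.comp_apply, h2, map_one]
  · by_contra hcon
    push Not at hcon
    have h1 : (S.subgroupOf N).map ϕ ≤ M := by
      rintro _ ⟨x, hx, rfl⟩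
      have h2 := hcon x (mem_subgroupOf.1 hx)
      have h3 : e (QuotientGroup.mk' M (ϕ x)) = 1 := h2
      rw [map_eq_one_iff e e.injective, QuotientGroup.mk'_apply, QuotientGroup.eq_one_iff] at h3
      exact h3
    have h2 : M.index ∣ (S.subgroupOf N).index :=
      (Subgroup.index_dvd_of_le h1).trans (Subgroup.index_map_dvd _ (by
        intro y; obtain ⟨x, rfl⟩ := QuotientGroup.mk_surjective y; exact ⟨x, rfl⟩))
    rw [Subgroup.index, hqp] at h2
    have h3 := (hS.of_le hSN le_top).not_dvd_index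
    exact h3 h2

end theta

section core

variable {G : Type*} [Group G] [Finite G] {p : ℕ} [Fact p.Prime]

/-- maximal subgroups of `p`-groups are normal of index `p` -/
theorem coatom_pgroup {K : Type*} [Group K] [Finite K] (hK : IsPGroup p K) {L : Subgroup K}
    (hL : IsCoatom L) : L.Normal ∧ L.index = p := by
  have hnil : Group.IsNilpotent K := hK.isNilpotent
  have hn : L.Normal :=
    Subgroup.NormalizerCondition.normal_of_coatom L Group.normalizerCondition_of_isNilpotent hL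
  refine ⟨hn, ?_⟩
  have hs : IsSimpleGroup (K ⧸ L) := by
    have hne : Nontrivial (K ⧸ L) := by
      rw [QuotientGroup.nontrivial_iff]; exact hL.1
    refine ⟨fun H _ => ?_⟩
    have h1 : L ≤ H.comap (QuotientGroup.mk' L) := by
      intro x hx
      rw [mem_comap, QuotientGroup.mk'_apply, (QuotientGroup.eq_one_iff x).2 hx]
      exact one_mem _
    rcases eq_or_lt_of_le h1 with h | h
    · left
      rw [eq_bot_iff]
      intro y hy
      obtain ⟨x, rfl⟩ := QuotientGroup.mk'_surjective L y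
      have : x ∈ H.comap (QuotientGroup.mk' L) := hy
      rw [← h] at this
      rw [mem_bot, QuotientGroup.mk'_apply, QuotientGroup.eq_one_iff]
      exact this
    · right
      have h2 := hL.2 _ h
      rw [eq_top_iff]
      intro y _
      obtain ⟨x, rfl⟩ := QuotientGroup.mk'_surjective L y
      have : x ∈ H.comap (QuotientGroup.mk' L) := by rw [h2]; trivial
      exact this
  have hp : IsPGroup p (K ⧸ L) := hK.to_quotient L
  have hcen : Subgroup.center (K ⧸ L) ≠ ⊥ := by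
    have := hs.toNontrivial
    exact (hp.bot_lt_center).ne'
  have htop : Subgroup.center (K ⧸ L) = ⊤ :=
    (hs.eq_bot_or_eq_top_of_normal _ inferInstance).resolve_left hcen
  let _ : CommGroup (K ⧸ L) := Group.commGroupOfCenterEqTop htop
  have hpr : (Nat.card (K ⧸ L)).Prime := IsSimpleGroup.prime_card
  obtain ⟨n, hn'⟩ := hp.exists_card_eq
  have h3 : p ∣ Nat.card (K ⧸ L) := by
    rcases Nat.eq_zero_or_pos n with h | h
    · rw [h, pow_zero] at hn'
      rw [hn'] at hpr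
      exact absurd hpr Nat.not_prime_one
    · rw [hn']; exact dvd_pow_self p h.ne'
  rw [Subgroup.index]
  exact ((Nat.prime_dvd_prime_iff_eq Fact.out hpr).1 h3).symm

/-- coset representatives of a normal subgroup of prime index -/
theorem coset_rep {K : Type*} [Group K] [Finite K] {L : Subgroup K} [L.Normal] (hL : L.index = p)
    {z : K} (hz : z ∉ L) :
    (∀ k : K, ∃ i < p, (z ^ i)⁻¹ * k ∈ L) ∧
      ∀ i < p, ∀ j < p, (z ^ i)⁻¹ * z ^ j ∈ L → i = j := by
  have hcard : Nat.card (K ⧸ L) = p := hL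
  have hz1 : (z : K ⧸ L) ≠ 1 := by rwa [Ne, QuotientGroup.eq_one_iff]
  have ho : orderOf (z : K ⧸ L) = p := by
    have h1 : orderOf (z : K ⧸ L) ∣ p := by rw [← hcard]; exact orderOf_dvd_natCard _
    exact ((Nat.Prime.eq_one_or_self_of_dvd Fact.out _ h1).resolve_left
      (fun h => hz1 (orderOf_eq_one_iff.1 h)))
  constructor
  · intro k
    have h1 : zpowers (z : K ⧸ L) = ⊤ := zpowers_eq_top_of_prime_card hcard hz1
    have h2 : (k : K ⧸ L) ∈ zpowers (z : K ⧸ L) := by rw [h1]; trivial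
    classical
    rw [mem_zpowers_iff_mem_range_orderOf, Finset.mem_image] at h2
    obtain ⟨i, hi, h3⟩ := h2
    rw [ho, Finset.mem_range] at hi
    refine ⟨i, hi, ?_⟩
    rw [← QuotientGroup.eq]
    exact h3
  · intro i hi j hj h
    rw [← QuotientGroup.eq] at h
    have h1 : (z : K ⧸ L) ^ i = (z : K ⧸ L) ^ j := h
    rw [pow_inj_mod, ho, Nat.mod_eq_of_lt hi, Nat.mod_eq_of_lt hj] at h1
    exact h1

/-- the core of Yoshida's theorem -/
theorem yoshida_core {S W : Subgroup G} (hS : SylIn p S ⊤) (hWS : W ≤ S)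
    (hW : ∀ g : G, W.map (MulAut.conj g).toMonoidHom ≤ S → g ∈ normalizer (W : Set G))
    (h : S ⊓ commutator G ≠ S ⊓ ⁅normalizer (W : Set G), normalizer (W : Set G)⁆) :
    ∃ (L : Subgroup G) (u z : G) (ψ : L →* Multiplicative (ZMod p)),
      u ∈ S ∧ u ∈ L ∧ z ∈ W ∧ z ∉ L ∧ L ≤ W ⊔ zpowers u ∧
      W ⊔ zpowers u ≤ normalizer (L : Set G) ∧ L.relIndex (W ⊔ zpowers u) = p ∧
      ∃ hmem : ∀ i : ℕ, (z ^ i)⁻¹ * u * z ^ i ∈ L,
        ∏ i ∈ Finset.range p, ψ ⟨_, hmem i⟩ ≠ 1 := by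
  classical
  set N := normalizer (W : Set G) with hN
  let _ : Fintype (G ⧸ N) := Fintype.ofFinite _
  have hSN : S ≤ N := by
    intro s hs
    apply hW
    rintro _ ⟨w, hw, rfl⟩
    exact mul_mem (mul_mem hs (hWS hw)) (inv_mem hs)
  obtain ⟨θ, hθ1, hθ2⟩ := exists_theta hS hSN h
  have hSp := hS.isPGroup
  have hSN' : SylIn p S N := hS.of_le hSN le_top
  -- minimal order
  obtain ⟨u, hu, humin⟩ : ∃ (u : G), (∃ hu : u ∈ S, θ ⟨u, hSN hu⟩ ≠ 1) ∧
      ∀ v : G, (∃ hv : v ∈ S, θ ⟨v, hSN hv⟩ ≠ 1) → orderOf u ≤ orderOf v := by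
    have hfin : {u : G | ∃ hu : u ∈ S, θ ⟨u, hSN hu⟩ ≠ 1}.Finite := Set.toFinite _
    obtain ⟨u, hu, hm⟩ := Set.exists_min_image _ orderOf hfin hθ2
    exact ⟨u, hu, hm⟩
  obtain ⟨huS, hθu⟩ := hu
  have huN := hSN huS
  have hkill : ∀ (m : ℕ) (x : G) (h : x⁻¹ * u ^ m * x ∈ N), 1 < m → m ∣ orderOf u →
      θ ⟨_, h⟩ = 1 := by
    intro m x hx hm1 hmd
    have h1 : IsPGroup p (zpowers (x⁻¹ * u ^ m * x)) := by
      have h2 : IsPGroup p (zpowers u) := hSp.to_le (by rwa [zpowers_le])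
      obtain ⟨k, hk⟩ := isPGroup_iff_mem.1 h2 (u ^ m) (pow_mem (mem_zpowers u) m)
      rw [isPGroup_iff_mem]
      rintro _ ⟨j, rfl⟩
      refine ⟨k, ?_⟩
      have h3 : (x⁻¹ * u ^ m * x) ^ j = x⁻¹ * (u ^ m) ^ j * x := by
        have := conj_zpow (a := x⁻¹) (b := u ^ m) (i := j)
        rwa [inv_inv] at this
      have h4 : (x⁻¹ * (u ^ m) ^ j * x) ^ (p ^ k) = x⁻¹ * ((u ^ m) ^ j) ^ (p ^ k) * x := by
        have := conj_pow (a := x⁻¹) (b := (u ^ m) ^ j) (i := p ^ k)
        rwa [inv_inv] at this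
      simp only
      rw [h3, h4, ← zpow_natCast, ← zpow_mul, mul_comm, zpow_mul, zpow_natCast, hk, one_zpow,
        mul_one, inv_mul_cancel]
    obtain ⟨n, hn, hn'⟩ := hSN'.exists_conj_le (Q := zpowers (x⁻¹ * u ^ m * x))
      (by rwa [zpowers_le]) h1
    have h5 : n * (x⁻¹ * u ^ m * x) * n⁻¹ ∈ S := hn' ⟨_, mem_zpowers _, rfl⟩
    by_contra hne
    have h6 : θ ⟨n * (x⁻¹ * u ^ m * x) * n⁻¹, hSN h5⟩ ≠ 1 := by
      have h7 : (⟨n * (x⁻¹ * u ^ m * x) * n⁻¹, hSN h5⟩ : N) =
          ⟨n, hn⟩ * ⟨x⁻¹ * u ^ m * x, hx⟩ * ⟨n, hn⟩⁻¹ := rfl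
      rw [h7, map_mul, map_mul, map_inv, mul_comm (θ ⟨n, hn⟩), mul_inv_cancel_right]
      exact hne
    have h8 := humin _ ⟨h5, h6⟩
    have h9 : n * (x⁻¹ * u ^ m * x) * n⁻¹ = (n * x⁻¹) * u ^ m * (n * x⁻¹)⁻¹ := by group
    have h10 : orderOf (n * (x⁻¹ * u ^ m * x) * n⁻¹) = orderOf (u ^ m) := by
      rw [h9]
      exact orderOf_injective (MulAut.conj (n * x⁻¹)).toMonoidHom
        (MulAut.conj (n * x⁻¹)).injective (u ^ m)
    rw [h10, orderOf_pow_of_dvd (by omega) hmd] at h8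
    have hpos : 0 < orderOf u := orderOf_pos u
    have := Nat.div_lt_self hpos hm1
    omega
  -- the base point
  obtain ⟨o, ho⟩ : ∃ o : G ⧸ N, o = ((1 : G) : G ⧸ N) := ⟨_, rfl⟩
  have hofix : ∀ n ∈ N, n • o = o := by
    intro n hn
    rw [ho]
    change ((n * 1 : G) : G ⧸ N) = _
    rw [mul_one, eq_comm, QuotientGroup.eq, inv_one, one_mul]
    exact hn
  have hco : coc θ u o = θ ⟨u, huN⟩ := by
    rw [ho]
    have hh : (1 : G)⁻¹ * u * 1 ∈ N := by simpa using huN
    rw [coc_fixed θ hh]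
    congr 1
    apply Subtype.ext
    simp
  set Ω₁ : Finset (G ⧸ N) := Finset.univ.erase o with hΩ₁
  have hprod1 : cprod θ Ω₁ u ≠ 1 := by
    intro hc
    have h1 := hθ1 u huS
    unfold cprod at h1 hc
    rw [← Finset.mul_prod_erase Finset.univ _ (Finset.mem_univ o), hco] at h1
    rw [hc, mul_one] at h1
    exact hθu h1
  set K := W ⊔ zpowers u with hK
  have hKS : K ≤ S := sup_le hWS (by rwa [zpowers_le])
  have huK : u ∈ K := mem_sup_right (mem_zpowers u)
  have hWK : W ≤ K := le_sup_left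
  have hinv1 : ∀ k ∈ K, Inv Ω₁ k := by
    intro k hk ω hω
    rw [hΩ₁, Finset.mem_erase] at hω ⊢
    refine ⟨fun h1 => hω.1 ?_, Finset.mem_univ _⟩
    have h2 := hofix k⁻¹ (inv_mem (hSN (hKS hk)))
    rw [← h2, ← h1, inv_smul_smul]
  -- a minimal invariant subset
  obtain ⟨O, ⟨hOΩ, hOinv, hOne⟩, hOmin⟩ : ∃ O : Finset (G ⧸ N), (O ⊆ Ω₁ ∧ (∀ k ∈ K, Inv O k) ∧
      cprod θ O u ≠ 1) ∧ ∀ O' : Finset (G ⧸ N), (O' ⊆ Ω₁ ∧ (∀ k ∈ K, Inv O' k) ∧
      cprod θ O' u ≠ 1) → O.card ≤ O'.card := by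
    have hfin : {O : Finset (G ⧸ N) | O ⊆ Ω₁ ∧ (∀ k ∈ K, Inv O k) ∧ cprod θ O u ≠ 1}.Finite :=
      Set.toFinite _
    obtain ⟨O, hO, hm⟩ := Set.exists_min_image _ Finset.card hfin
      ⟨Ω₁, subset_rfl, hinv1, hprod1⟩
    exact ⟨O, hO, hm⟩
  obtain ⟨ω, hωO, hufix⟩ : ∃ ω ∈ O, u • ω = ω := by
    by_contra hcon
    push Not at hcon
    exact hOne (cprod_eq_one_of_no_fixed θ (orderOf_pos u) hkill _ O le_rfl (hOinv u huK) hcon)
  have hωo : ω ≠ o := by
    have := hOΩ hωO
    rw [hΩ₁, Finset.mem_erase] at this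
    exact this.1
  have htrans : ∀ x ∈ O, ∃ k ∈ K, k • ω = x := by
    set O' := O.filter (fun x => ∃ k ∈ K, k • ω = x) with hO'
    have hO'sub : O' ⊆ O := Finset.filter_subset _ _
    have hωO' : ω ∈ O' := by
      rw [hO', Finset.mem_filter]
      exact ⟨hωO, 1, one_mem _, one_smul _ _⟩
    have hO'inv : ∀ k ∈ K, Inv O' k := by
      intro k hk x hx
      rw [hO', Finset.mem_filter] at hx ⊢
      obtain ⟨hx1, l, hl, rfl⟩ := hx
      exact ⟨hOinv k hk _ hx1, k * l, mul_mem hk hl, mul_smul _ _ _⟩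
    have hrinv : ∀ k ∈ K, Inv (O \ O') k := by
      intro k hk x hx
      rw [Finset.mem_sdiff] at hx ⊢
      refine ⟨hOinv k hk x hx.1, fun h => hx.2 ?_⟩
      have := hO'inv k⁻¹ (inv_mem hk) _ h
      rwa [inv_smul_smul] at this
    have hr1 : cprod θ (O \ O') u = 1 := by
      by_contra hne
      have h1 := hOmin _ ⟨(Finset.sdiff_subset.trans hOΩ), hrinv, hne⟩
      have h2 : (O \ O').card < O.card := by
        apply Finset.card_lt_card
        refine ⟨Finset.sdiff_subset, fun h => ?_⟩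
        have h3 := h hωO
        rw [Finset.mem_sdiff] at h3
        exact h3.2 hωO'
      omega
    have hO'ne : cprod θ O' u ≠ 1 := by
      intro h1
      apply hOne
      rw [← Finset.union_sdiff_of_subset hO'sub, cprod_union θ Finset.disjoint_sdiff, h1, hr1,
        mul_one]
    have h2 := hOmin _ ⟨hO'sub.trans hOΩ, hO'inv, hO'ne⟩
    have h3 : O' = O := Finset.eq_of_subset_of_card_le hO'sub h2
    intro x hx
    rw [← h3, hO', Finset.mem_filter] at hx
    exact hx.2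
  -- the stabilizer
  have hKp : IsPGroup p K := hSp.to_le hKS
  set R : Subgroup G := K ⊓ MulAction.stabilizer G ω with hR
  have hWR : ¬ W ≤ R := by
    intro hle
    obtain ⟨x, rfl⟩ := QuotientGroup.mk_surjective ω
    have hWx : W.map (MulAut.conj x⁻¹).toMonoidHom ≤ N := by
      rintro _ ⟨w, hw, rfl⟩
      have h1 : w • ((x : G) : G ⧸ N) = (x : G ⧸ N) :=
        MulAction.mem_stabilizer_iff.1 (mem_inf.1 (hle hw)).2
      have h2 : ((w * x : G) : G ⧸ N) = (x : G ⧸ N) := h1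
      rw [eq_comm, QuotientGroup.eq, ← mul_assoc] at h2
      simpa using h2
    obtain ⟨n, hn, hn'⟩ := hSN'.exists_conj_le hWx ((hSp.to_le hWS).map _)
    rw [← map_conj_mul] at hn'
    have h3 := hW _ hn'
    have h4 : x ∈ N := by
      have : x = (n * x⁻¹)⁻¹ * n := by group
      rw [this]
      exact mul_mem (inv_mem h3) hn
    apply hωo
    rw [ho, eq_comm, QuotientGroup.eq, inv_one, one_mul]
    exact h4
  have huR : u ∈ R := mem_inf.2 ⟨huK, hufix⟩
  have hRK : R ≤ K := inf_le_left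
  obtain ⟨L', hL', hRL'⟩ : ∃ L' : Subgroup K, IsCoatom L' ∧ R.subgroupOf K ≤ L' := by
    obtain h1 | h1 := eq_top_or_exists_le_coatom (R.subgroupOf K)
    · rw [subgroupOf_eq_top] at h1
      exact absurd (hWK.trans h1) hWR
    · exact h1
  obtain ⟨hLn, hLi⟩ := coatom_pgroup hKp hL'
  set L : Subgroup G := L'.map K.subtype with hL
  have hLK : L ≤ K := map_subtype_le _
  have hLL' : L.subgroupOf K = L' := by
    rw [hL, subgroupOf, comap_map_eq_self_of_injective K.subtype_injective]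
  have hRL : R ≤ L := by
    rw [← map_subgroupOf_eq_of_le hRK]
    exact map_mono hRL'
  have huL : u ∈ L := hRL huR
  have hWL : ¬ W ≤ L := by
    intro hle
    have h1 : K ≤ L := sup_le hle (by rwa [zpowers_le])
    apply hL'.1
    rw [← hLL', subgroupOf_eq_top]
    exact h1
  obtain ⟨z, hzW, hzL⟩ := SetLike.not_le_iff_exists.1 hWL
  have hzK : z ∈ K := hWK hzW
  have hKL : K ≤ normalizer (L : Set G) := by
    rw [le_normalizer_iff]
    rintro k hk _ ⟨y, hy, rfl⟩
    exact ⟨⟨k, hk⟩ * y * ⟨k, hk⟩⁻¹, hLn.conj_mem y hy _, rfl⟩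
  have hzL' : (⟨z, hzK⟩ : K) ∉ L' := by
    rw [← hLL', mem_subgroupOf]; exact hzL
  obtain ⟨hrep1, hrep2⟩ := coset_rep hLi hzL'
  have hconj : ∀ (v : G), v ∈ L → ∀ i : ℕ, (z ^ i)⁻¹ * v * z ^ i ∈ L := by
    intro v hv i
    have h1 : (z ^ i)⁻¹ ∈ normalizer (L : Set G) := inv_mem (pow_mem (hKL hzK) i)
    have h2 := (mem_normalizer_iff.1 h1 v).1 hv
    rwa [inv_inv] at h2
  -- the `L`-orbit of `ω`
  set Ω₀ := O.filter (fun x => ∃ l ∈ L, l • ω = x) with hΩ₀
  have hΩ₀inv : ∀ l ∈ L, Inv Ω₀ l := by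
    intro l hl x hx
    rw [hΩ₀, Finset.mem_filter] at hx ⊢
    obtain ⟨hx1, k, hk, rfl⟩ := hx
    exact ⟨hOinv l (hLK hl) _ hx1, l * k, mul_mem hl hk, mul_smul _ _ _⟩
  let ψ : L →* Multiplicative (ZMod p) :=
    { toFun := fun l => cprod θ Ω₀ l
      map_one' := cprod_one θ _
      map_mul' := fun g k => cprod_mul θ (hΩ₀inv k k.2) }
  have hO : O = (Finset.range p).biUnion (fun i => Ω₀.image (fun x => z ^ i • x)) := by
    ext x
    rw [Finset.mem_biUnion]
    constructor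
    · intro hx
      obtain ⟨k, hk, rfl⟩ := htrans x hx
      obtain ⟨i, hi, h1⟩ := hrep1 ⟨k, hk⟩
      rw [← hLL', mem_subgroupOf] at h1
      have h1' : (z ^ i)⁻¹ * k ∈ L := h1
      refine ⟨i, Finset.mem_range.2 hi, ?_⟩
      rw [Finset.mem_image]
      refine ⟨((z ^ i)⁻¹ * k) • ω, ?_, ?_⟩
      · rw [hΩ₀, Finset.mem_filter]
        exact ⟨hOinv _ (hLK h1') _ hωO, _, h1', rfl⟩
      · rw [← mul_smul, mul_inv_cancel_left]
    · rintro ⟨i, _, hx⟩
      rw [Finset.mem_image] at hx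
      obtain ⟨y, hy, rfl⟩ := hx
      rw [hΩ₀, Finset.mem_filter] at hy
      exact hOinv _ (pow_mem hzK i) _ hy.1
  have hdisj : ∀ i ∈ Finset.range p, ∀ j ∈ Finset.range p, i ≠ j →
      Disjoint (Ω₀.image (fun x => z ^ i • x)) (Ω₀.image (fun x => z ^ j • x)) := by
    intro i hi j hj hij
    rw [Finset.disjoint_left]
    intro x hx hx'
    rw [Finset.mem_image] at hx hx'
    obtain ⟨y, hy, rfl⟩ := hx
    obtain ⟨y', hy', h1⟩ := hx'
    rw [hΩ₀, Finset.mem_filter] at hy hy'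
    obtain ⟨_, l, hl, rfl⟩ := hy
    obtain ⟨_, l', hl', rfl⟩ := hy'
    apply hij
    apply hrep2 i (Finset.mem_range.1 hi) j (Finset.mem_range.1 hj)
    rw [← hLL', mem_subgroupOf]
    change (z ^ i)⁻¹ * z ^ j ∈ L
    -- stabilizer element
    have h2 : l⁻¹ * ((z ^ i)⁻¹ * z ^ j) * l' ∈ R := by
      refine mem_inf.2 ⟨?_, ?_⟩
      · exact mul_mem (mul_mem (inv_mem (hLK hl)) (mul_mem (inv_mem (pow_mem hzK i))
          (pow_mem hzK j))) (hLK hl')
      · rw [MulAction.mem_stabilizer_iff, mul_smul, mul_smul, mul_smul, h1, inv_smul_smul,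
          inv_smul_smul]
    have h3 := hRL h2
    have : (z ^ i)⁻¹ * z ^ j = l * (l⁻¹ * ((z ^ i)⁻¹ * z ^ j) * l') * l'⁻¹ := by group
    rw [this]
    exact mul_mem (mul_mem hl h3) (inv_mem hl')
  refine ⟨L, u, z, ψ, huS, huL, hzW, hzL, hLK, hKL, ?_, hconj u huL, ?_⟩
  · rw [Subgroup.relIndex, hLL']; exact hLi
  · intro hprod
    apply hOne
    unfold cprod
    rw [hO, Finset.prod_biUnion (by
      intro i hi j hj hij
      exact hdisj i hi j hj hij)]
    rw [← hprod]
    apply Finset.prod_congr rfl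
    intro i _
    have h1 := cprod_conj θ (Ω := Ω₀) (g := z ^ i) (k := (z ^ i)⁻¹ * u * z ^ i)
      (hΩ₀inv _ (hconj u huL i))
    have h2 : z ^ i * ((z ^ i)⁻¹ * u * z ^ i) * (z ^ i)⁻¹ = u := by group
    rw [h2] at h1
    exact h1

end core

section operator

variable {p : ℕ} [Fact p.Prime]

open Polynomial in
theorem poly_identity : ((X : (ZMod p)[X]) - 1) ^ (p - 1) = ∑ i ∈ Finset.range p, X ^ i := by
  have hp : 0 < p := (Fact.out : p.Prime).pos
  have h1 : ((X : (ZMod p)[X]) - 1) * (X - 1) ^ (p - 1) = (X - 1) * ∑ i ∈ Finset.range p, X ^ i := by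
    rw [← pow_succ', Nat.sub_add_cancel hp, mul_geom_sum, sub_pow_char, one_pow]
  exact mul_left_cancel₀ (X_sub_C_ne_zero (1 : ZMod p) |> fun h => by simpa using h) h1

/-- the shift operator on sequences -/
def shiftOp (p : ℕ) : (ℕ → ZMod p) →ₗ[ZMod p] (ℕ → ZMod p) where
  toFun a := fun i => a (i + 1)
  map_add' _ _ := rfl
  map_smul' _ _ := rfl

omit [Fact p.Prime] in
theorem shiftOp_pow (i : ℕ) (a : ℕ → ZMod p) (j : ℕ) : ((shiftOp p) ^ i) a j = a (j + i) := by
  induction i generalizing a j with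
  | zero => simp
  | succ i ih =>
    rw [pow_succ, Module.End.mul_apply, ih]
    change a (j + i + 1) = a (j + (i + 1))
    rw [add_assoc]

theorem shift_identity (a : ℕ → ZMod p) (j : ℕ) :
    ((shiftOp p - 1) ^ (p - 1)) a j = ∑ i ∈ Finset.range p, a (j + i) := by
  have h1 := congrArg (Polynomial.aeval (shiftOp p)) (poly_identity (p := p))
  rw [map_pow, map_sub, Polynomial.aeval_X, map_one, map_sum] at h1
  rw [h1]
  simp only [map_pow, Polynomial.aeval_X, LinearMap.sum_apply, Finset.sum_apply, shiftOp_pow]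

/-- iterated commutators and homomorphisms to `ZMod p` -/
theorem iter_comm {G : Type*} [Group G] {L : Subgroup G} {z : G} (hz : z ∈ normalizer (L : Set G))
    (ψ : L →* Multiplicative (ZMod p)) {y : G} (hy : y ∈ L) :
    ∃ (h1 : (fun y : G => y⁻¹ * z⁻¹ * y * z)^[p - 1] y ∈ L)
      (h2 : ∀ i : ℕ, (z ^ i)⁻¹ * y * z ^ i ∈ L),
      ψ ⟨_, h1⟩ = ∏ i ∈ Finset.range p, ψ ⟨_, h2 i⟩ := by
  have hconj : ∀ (v : G), v ∈ L → ∀ i : ℕ, (z ^ i)⁻¹ * v * z ^ i ∈ L := by
    intro v hv i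
    have h1 : (z ^ i)⁻¹ ∈ normalizer (L : Set G) := inv_mem (pow_mem hz i)
    have h2 := (mem_normalizer_iff.1 h1 v).1 hv
    rwa [inv_inv] at h2
  let a : L → ℕ → ZMod p := fun v i => Multiplicative.toAdd (ψ ⟨_, hconj v v.2 i⟩)
  have hf : ∀ v : G, v ∈ L → v⁻¹ * z⁻¹ * v * z ∈ L := by
    intro v hv
    have h3 := hconj v hv 1
    rw [pow_one] at h3
    have : v⁻¹ * z⁻¹ * v * z = v⁻¹ * (z⁻¹ * v * z) := by group
    rw [this]
    exact mul_mem (inv_mem hv) h3
  have hstep : ∀ (v : L), a ⟨_, hf v v.2⟩ = (shiftOp p - 1) (a v) := by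
    intro v
    funext i
    have h4 : (⟨_, hconj _ (hf v v.2) i⟩ : L) = ⟨_, hconj v v.2 i⟩⁻¹ * ⟨_, hconj v v.2 (i + 1)⟩ := by
      apply Subtype.ext
      simp only [Subgroup.coe_mul, Subgroup.coe_inv]
      rw [pow_succ']
      group
    change Multiplicative.toAdd (ψ _) = a v (i + 1) - a v i
    rw [h4, map_mul, map_inv, toAdd_mul, toAdd_inv]
    change - a v i + a v (i + 1) = _
    ring
  have hiter : ∀ n : ℕ, ∀ v : L, ∃ h : (fun y : G => y⁻¹ * z⁻¹ * y * z)^[n] v ∈ L,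
      a ⟨_, h⟩ = ((shiftOp p - 1) ^ n) (a v) := by
    intro n
    induction n with
    | zero => intro v; exact ⟨v.2, by simp⟩
    | succ n ih =>
      intro v
      obtain ⟨h, h'⟩ := ih ⟨_, hf v v.2⟩
      refine ⟨h, ?_⟩
      rw [hstep] at h'
      rw [pow_succ, Module.End.mul_apply, ← h']
      rfl
  obtain ⟨h, h'⟩ := hiter (p - 1) ⟨y, hy⟩
  refine ⟨h, hconj y hy, ?_⟩
  have h5 := congrFun h' 0
  rw [shift_identity] at h5
  simp only [zero_add] at h5
  have h6 : a ⟨_, h⟩ 0 = Multiplicative.toAdd (ψ ⟨_, h⟩) := by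
    change Multiplicative.toAdd (ψ _) = _
    congr 2
    apply Subtype.ext
    simp
  rw [h6] at h5
  apply Multiplicative.toAdd.injective
  rw [h5, toAdd_prod]

end operator

section S2792

variable {G : Type*} [Group G] [Finite G] {p : ℕ} [Fact p.Prime]

theorem not_mem_frattini {W : Type*} [Group W] [Finite W] (χ : W →* Multiplicative (ZMod p)) {y : W}
    (hy : χ y ≠ 1) : y ∉ frattini W := by
  intro hmem
  have hker : χ.ker ≠ ⊤ := fun h => hy (by
    have : y ∈ χ.ker := by rw [h]; trivial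
    exact this)
  obtain h | ⟨M, hM, hkM⟩ := eq_top_or_exists_le_coatom χ.ker
  · exact hker h
  have hyM : y ∈ M := frattini_le_coatom hM hmem
  apply hM.1
  rw [eq_top_iff]
  intro w _
  -- `χ w` is a power of `χ y`
  have hcard : Nat.card (Multiplicative (ZMod p)) = p := by simp
  have h1 : zpowers (χ y) = ⊤ := zpowers_eq_top_of_prime_card hcard hy
  have h2 : χ w ∈ zpowers (χ y) := by rw [h1]; trivial
  obtain ⟨j, hj⟩ := h2
  have h3 : (y ^ j)⁻¹ * w ∈ χ.ker := by
    rw [MonoidHom.mem_ker, map_mul, map_inv, map_zpow]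
    simp only at hj
    rw [hj, inv_mul_cancel]
  have : w = y ^ j * ((y ^ j)⁻¹ * w) := by group
  rw [this]
  exact mul_mem (zpow_mem hyM j) (hkM h3)

theorem yoshida_2792 {S W : Subgroup G} (hS : SylIn p S ⊤) (hWS : W ≤ S)
    (hW : ∀ g : G, W.map (MulAut.conj g).toMonoidHom ≤ S → g ∈ normalizer (W : Set G))
    (h : S ⊓ commutator G ≠ S ⊓ ⁅normalizer (W : Set G), normalizer (W : Set G)⁆) :
    ∃ x ∈ S, ∃ z ∈ W, ∃ W₀ : Subgroup ↥W, IsCoatom W₀ ∧
      (fun y : G => y⁻¹ * z⁻¹ * y * z)^[p - 1] x ∈ W₀.map W.subtype ∧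
      (fun y : G => y⁻¹ * z⁻¹ * y * z)^[p - 1] x ∉ ((frattini ↥W₀).map W₀.subtype).map W.subtype := by
  obtain ⟨L, u, z, ψ, huS, huL, hzW, hzL, hLK, hKL, hLi, hmem, hprod⟩ := yoshida_core hS hWS hW h
  have hzN : z ∈ normalizer (L : Set G) := hKL (mem_sup_left hzW)
  obtain ⟨h1, h2, h3⟩ := iter_comm hzN ψ huL
  have hSN : S ≤ normalizer (W : Set G) := by
    intro s hs
    apply hW
    rintro _ ⟨w, hw, rfl⟩
    exact mul_mem (mul_mem hs (hWS hw)) (inv_mem hs)
  have hyW : (fun y : G => y⁻¹ * z⁻¹ * y * z)^[p - 1] u ∈ W := by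
    have hstep : ∀ v ∈ S, v⁻¹ * z⁻¹ * v * z ∈ W := by
      intro v hv
      have h4 := (mem_normalizer_iff.1 (inv_mem (hSN hv)) z⁻¹).1 (inv_mem hzW)
      rw [inv_inv] at h4
      exact mul_mem h4 hzW
    have key : ∀ n : ℕ, ∀ v ∈ S, (fun y : G => y⁻¹ * z⁻¹ * y * z)^[n + 1] v ∈ W := by
      intro n
      induction n with
      | zero => intro v hv; exact hstep v hv
      | succ n ih =>
        intro v hv
        rw [Function.iterate_succ_apply]
        exact ih _ (hWS (hstep v hv))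
    obtain ⟨n, hn⟩ : ∃ n, p - 1 = n + 1 := ⟨p - 2, by
      have := (Fact.out : p.Prime).two_le; omega⟩
    rw [hn]
    exact key n u huS
  refine ⟨u, huS, z, hzW, L.subgroupOf W, ?_, ?_, ?_⟩
  · -- coatom
    refine ⟨fun h4 => ?_, fun T hT => ?_⟩
    · rw [subgroupOf_eq_top] at h4
      exact hzL (h4 hzW)
    · obtain ⟨t, htT, htL⟩ := SetLike.exists_of_lt hT
      rw [eq_top_iff]
      intro w _
      have hWK : W ≤ W ⊔ zpowers u := le_sup_left
      have hn : (L.subgroupOf (W ⊔ zpowers u)).Normal := normal_subgroupOf_of_le hKL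
      obtain ⟨hrep, _⟩ := coset_rep (p := p) (L := L.subgroupOf (W ⊔ zpowers u)) hLi
        (z := ⟨t, hWK t.2⟩) (by rw [mem_subgroupOf]; exact htL)
      obtain ⟨i, _, hi⟩ := hrep ⟨w, hWK w.2⟩
      rw [mem_subgroupOf] at hi
      have h5 : (t ^ i)⁻¹ * w ∈ L.subgroupOf W := hi
      have : w = t ^ i * ((t ^ i)⁻¹ * w) := by group
      rw [this]
      exact mul_mem (pow_mem htT i) (hT.le h5)
  · exact ⟨⟨_, hyW⟩, h1, rfl⟩
  · rintro ⟨_, ⟨y, hy, rfl⟩, hyx⟩
    have hyx' : ((y : W) : G) = (fun y : G => y⁻¹ * z⁻¹ * y * z)^[p - 1] u := hyx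
    let χ : (L.subgroupOf W) →* Multiplicative (ZMod p) :=
      ψ.comp ((W.subtype.comp (L.subgroupOf W).subtype).codRestrict L (fun x => x.2))
    refine not_mem_frattini χ ?_ hy
    have h6 : χ y = ψ ⟨_, h1⟩ := by
      change ψ _ = _
      congr 1
      exact Subtype.ext hyx'
    rw [h6, h3]
    exact hprod

end S2792

end Cfsg.Agent.H47
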